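/-
Frobenius on `F[x]` and the roots of irreducible self-dual polynomials over `GF(q²)`.
-/
import Cfsg.Agent.H62.Covering.Basic
import Cfsg.Agent.H3.Field
import Cfsg.Agent.H67.DualPoly

set_option autoImplicit false

open Polynomial

namespace Cfsg.Agent.H62.Covering

variable {F : Type*} [Field F]

/-- Powers of the characteristic act on `F[x]` through the coefficients. -/
theorem aeval_pow_frob {A : Type*} [Ring A] [Algebra F A] (p k : ℕ) [Fact p.Prime] [CharP A p]
    (τ : F →+* F) (hτ : ∀ a, τ a = a ^ p ^ k) (x : A) (P : F[X]) :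
    (aeval x P) ^ p ^ k = aeval (x ^ p ^ k) (P.map τ) := by
  induction P using Polynomial.induction_on' with
  | add P Q hP hQ =>
    rw [map_add, add_pow_char_pow_of_commute p k ((Commute.all P Q).map (aeval x)),
      Polynomial.map_add, map_add, hP, hQ]
  | monomial i a =>
    rw [aeval_monomial, map_monomial, aeval_monomial, hτ, map_pow,
      (show Commute (algebraMap F A a) (x ^ i) from Algebra.commutes a (x ^ i)).mul_pow, pow_right_comm]

variable [Finite F]

/-- In `F[r]` the roots of the minimal polynomial are the Frobenius conjugates of `r`. -/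
theorem root_conjugates [Fintype F] {f : F[X]} [Fact (Irreducible f)] {r' : AdjoinRoot f}
    (h : aeval r' f = 0) : ∃ i : ℕ, r' = AdjoinRoot.root f ^ Fintype.card F ^ i := by
  have hf : Irreducible f := Fact.out
  have : Module.Finite F (AdjoinRoot f) := (AdjoinRoot.powerBasis hf.ne_zero).finite
  have : Finite (AdjoinRoot f) := Module.finite_of_finite F
  set φ : AdjoinRoot f →ₐ[F] AdjoinRoot f :=
    AdjoinRoot.liftAlgHom f (Algebra.ofId F (AdjoinRoot f)) r' h
  obtain ⟨i, hi⟩ := (FiniteField.bijective_frobeniusAlgEquivOfAlgebraic_pow F (AdjoinRoot f)).2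
    (AlgEquiv.ofBijective φ φ.bijective)
  refine ⟨i, ?_⟩
  have h1 := AlgEquiv.congr_fun hi (AdjoinRoot.root f)
  simp only [AlgEquiv.coe_pow, FiniteField.coe_frobeniusAlgEquivOfAlgebraic, pow_iterate,
    AlgEquiv.coe_ofBijective] at h1
  rw [h1]
  exact (AdjoinRoot.liftAlgHom_root _ _ _ _).symm

/-- The Frobenius orbit of a root has length the degree. -/
theorem natDegree_dvd_of_fixed [Fintype F] {f : F[X]} [Fact (Irreducible f)] {j : ℕ}
    (h : AdjoinRoot.root f ^ Fintype.card F ^ j = AdjoinRoot.root f) : f.natDegree ∣ j := by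
  have hf : Irreducible f := Fact.out
  have : Module.Finite F (AdjoinRoot f) := (AdjoinRoot.powerBasis hf.ne_zero).finite
  have : Finite (AdjoinRoot f) := Module.finite_of_finite F
  set φ := FiniteField.frobeniusAlgEquivOfAlgebraic F (AdjoinRoot f)
  have h1 : φ ^ j = 1 := by
    refine AlgEquiv.coe_toAlgHom_injective (AdjoinRoot.algHom_ext ?_)
    show (φ ^ j) (AdjoinRoot.root f) = AdjoinRoot.root f
    rw [AlgEquiv.coe_pow, FiniteField.coe_frobeniusAlgEquivOfAlgebraic, pow_iterate]
    exact h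
  have h2 := orderOf_dvd_of_pow_eq_one h1
  rwa [FiniteField.orderOf_frobeniusAlgEquivOfAlgebraic,
    (AdjoinRoot.powerBasis hf.ne_zero).finrank, AdjoinRoot.powerBasis_dim] at h2

variable {q : ℕ}

/-- A root of a self-dual irreducible polynomial: `r ^ (-q)` is again a Frobenius conjugate. -/
theorem selfDual_root [Fintype F] (hF : Fintype.card F = q ^ 2) {f : F[X]} [Fact (Irreducible f)]
    (_hm : f.Monic) (h0 : f.coeff 0 ≠ 0) (hd : H67.dualPoly (H3.conjQ hF) f = f) :
    ∃ i : ℕ, f.natDegree ∣ 2 * i + (f.natDegree - 1) ∧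
      (AdjoinRoot.root f)⁻¹ ^ q = AdjoinRoot.root f ^ Fintype.card F ^ i := by
  have hf : Irreducible f := Fact.out
  obtain ⟨p, k, hp, hchar, hk, hq⟩ := H3.exists_q_eq_pow hF
  have : Fact p.Prime := ⟨hp⟩
  have : CharP (AdjoinRoot f) p := charP_of_injective_algebraMap (algebraMap F (AdjoinRoot f)).injective p
  set r := AdjoinRoot.root f with hr
  have hr0 : r ≠ 0 := fun h => h0 (by
    have h1 : aeval r f = 0 := by rw [hr, AdjoinRoot.aeval_eq, AdjoinRoot.mk_self]
    rw [h, ← coeff_zero_eq_aeval_zero'] at h1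
    exact (map_eq_zero_iff _ (algebraMap F (AdjoinRoot f)).injective).1 h1)
  set σ := H3.conjQ hF
  have h1 : aeval r⁻¹ (f.map σ) = 0 := by
    have h2 : aeval r ((f.map σ).reverse) = 0 := by
      have h3 : aeval r (H67.dualPoly σ f) = 0 := by rw [hd, hr, AdjoinRoot.aeval_eq, AdjoinRoot.mk_self]
      rw [H67.dualPoly, map_mul, aeval_C, mul_eq_zero, map_eq_zero_iff _ (algebraMap F (AdjoinRoot f)).injective,
        inv_eq_zero, _root_.map_eq_zero] at h3
      exact h3.resolve_left h0
    let := invertibleOfNonzero (inv_ne_zero hr0)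
    rw [aeval_def, ← eval₂_reverse_eq_zero_iff, invOf_eq_inv, inv_inv]
    rwa [aeval_def] at h2
  have h2 : aeval (r⁻¹ ^ q) f = 0 := by
    have h3 := aeval_pow_frob p k σ (fun a => by rw [H3.conjQ_apply, hq]) r⁻¹ (f.map σ)
    rw [h1, zero_pow (pow_ne_zero k hp.ne_zero), Polynomial.map_map, ← hq,
      show σ.comp σ = RingHom.id F from RingHom.ext (H3.conjQ_conjQ hF), Polynomial.map_id] at h3
    exact h3.symm
  obtain ⟨i, hi⟩ := root_conjugates h2
  refine ⟨i, ?_, hi⟩
  -- apply the map twice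
  have h4 : r ^ Fintype.card F ^ (2 * i) = r ^ Fintype.card F ^ 1 := by
    calc r ^ Fintype.card F ^ (2 * i) = (r ^ Fintype.card F ^ i) ^ Fintype.card F ^ i := by
          rw [← pow_mul, ← pow_add]; ring_nf
      _ = (r⁻¹ ^ q) ^ Fintype.card F ^ i := by rw [← hi]
      _ = (r ^ Fintype.card F ^ i)⁻¹ ^ q := by rw [pow_right_comm, inv_pow]
      _ = (r⁻¹ ^ q)⁻¹ ^ q := by rw [← hi]
      _ = r ^ Fintype.card F ^ 1 := by
          rw [inv_pow r, inv_inv, ← pow_mul, pow_one, hF, pow_two]
  have hd0 := hf.natDegree_pos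
  set d := f.natDegree with hdd
  have h5 : r ^ Fintype.card F ^ d = r := by
    have : Module.Finite F (AdjoinRoot f) := (AdjoinRoot.powerBasis hf.ne_zero).finite
    have : Finite (AdjoinRoot f) := Module.finite_of_finite F
    have := Fintype.ofFinite (AdjoinRoot f)
    have h6 := FiniteField.pow_card r
    rwa [Module.card_eq_pow_finrank (K := F), (AdjoinRoot.powerBasis hf.ne_zero).finrank,
      AdjoinRoot.powerBasis_dim] at h6
  refine natDegree_dvd_of_fixed ?_
  calc r ^ Fintype.card F ^ (2 * i + (d - 1))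
      = (r ^ Fintype.card F ^ (2 * i)) ^ Fintype.card F ^ (d - 1) := by rw [← pow_mul, ← pow_add]
    _ = r ^ Fintype.card F ^ d := by
        rw [h4, ← pow_mul, ← pow_add, show 1 + (d - 1) = d by omega]
    _ = r := h5

/-- Self-dual irreducible polynomials have odd degree. -/
theorem odd_natDegree_of_selfDual [Fintype F] (hF : Fintype.card F = q ^ 2) {f : F[X]}
    (hf : Irreducible f) (hm : f.Monic) (h0 : f.coeff 0 ≠ 0) (hd : H67.dualPoly (H3.conjQ hF) f = f) :
    Odd f.natDegree := by
  have : Fact (Irreducible f) := ⟨hf⟩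
  obtain ⟨i, ⟨c, hc⟩, -⟩ := selfDual_root hF hm h0 hd
  have := hf.natDegree_pos
  by_contra h
  rw [Nat.not_odd_iff_even] at h
  obtain ⟨e, he⟩ := h
  rw [he, add_mul] at hc
  omega

/-- The root of a self-dual irreducible cubic has order dividing `q ^ 3 + 1`. -/
theorem root_pow_of_selfDual_cubic [Fintype F] (hF : Fintype.card F = q ^ 2) {f : F[X]}
    [Fact (Irreducible f)] (hm : f.Monic) (h0 : f.coeff 0 ≠ 0)
    (hd : H67.dualPoly (H3.conjQ hF) f = f) (h3 : f.natDegree = 3) :
    AdjoinRoot.root f ^ (q ^ 3 + 1) = 1 := by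
  have hf : Irreducible f := Fact.out
  obtain ⟨i, hdvd, hi⟩ := selfDual_root hF hm h0 hd
  obtain ⟨p, k, hp, hchar, hk, hq⟩ := H3.exists_q_eq_pow hF
  have : Fact p.Prime := ⟨hp⟩
  have : CharP (AdjoinRoot f) p := charP_of_injective_algebraMap (algebraMap F (AdjoinRoot f)).injective p
  set r := AdjoinRoot.root f
  have : Module.Finite F (AdjoinRoot f) := (AdjoinRoot.powerBasis hf.ne_zero).finite
  have : Finite (AdjoinRoot f) := Module.finite_of_finite F
  have := Fintype.ofFinite (AdjoinRoot f)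
  have h6 : ∀ x : AdjoinRoot f, x ^ Fintype.card F ^ 3 = x := fun x => by
    have h6 := FiniteField.pow_card x
    rwa [Module.card_eq_pow_finrank (K := F), (AdjoinRoot.powerBasis hf.ne_zero).finrank,
      AdjoinRoot.powerBasis_dim, h3] at h6
  have hper : ∀ m, r ^ Fintype.card F ^ (3 * m + 2) = r ^ Fintype.card F ^ 2 := fun m => by
    induction m with
    | zero => rfl
    | succ m ih => rw [show 3 * (m + 1) + 2 = (3 * m + 2) + 3 by ring, pow_add, pow_mul, h6, ih]
  rw [h3] at hdvd
  obtain ⟨c, hc⟩ := hdvd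
  have h7 : r⁻¹ ^ q = r ^ Fintype.card F ^ 2 := by
    rw [hi, show i = 3 * (i / 3) + 2 by omega, hper]
  have hr0 : r ≠ 0 := by
    intro h
    have h1 : aeval r f = 0 := by rw [AdjoinRoot.aeval_eq, AdjoinRoot.mk_self]
    rw [h, ← coeff_zero_eq_aeval_zero'] at h1
    exact h0 ((map_eq_zero_iff _ (algebraMap F (AdjoinRoot f)).injective).1 h1)
  refine frobenius_inj (AdjoinRoot f) p |>.iterate k ?_
  rw [iterate_frobenius, iterate_frobenius, ← hq, one_pow, ← pow_mul]
  rw [hF, inv_pow] at h7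
  have h8 : r ^ q * r ^ (q ^ 2) ^ 2 = 1 := by rw [← h7]; exact mul_inv_cancel₀ (pow_ne_zero q hr0)
  rw [← pow_add] at h8
  rw [← h8]
  congr 1
  ring

end Cfsg.Agent.H62.Covering
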