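/-
`PSL_n(q)`, `n ≤ 4`, is covered by a point stabiliser and the centraliser of an embedded field.
-/
import Cfsg.Agent.H62.Covering.Basic
import Cfsg.Agent.H66.Matrix

set_option autoImplicit false

open Polynomial Matrix
open scoped MatrixGroups

namespace Cfsg.Agent.H62.Covering

variable {F : Type*} [Field F] [Finite F] {n : ℕ}

omit [Finite F] in
/-- A root of the characteristic polynomial has an eigenvector. -/
theorem exists_eigvec {ι : Type*} [Fintype ι] [DecidableEq ι] (M : Matrix ι ι F) {r : F}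
    (hr : M.charpoly.IsRoot r) : ∃ v : ι → F, v ≠ 0 ∧ M *ᵥ v = r • v := by
  rw [IsRoot, Matrix.eval_charpoly] at hr
  obtain ⟨v, hv, h⟩ := Matrix.exists_mulVec_eq_zero_iff.2 hr
  refine ⟨v, hv, ?_⟩
  rw [Matrix.sub_mulVec, sub_eq_zero] at h
  rw [← h, Matrix.scalar_apply]
  ext i
  simp [Matrix.mulVec_diagonal]

omit [Finite F] in
/-- Two matrices killed by the same irreducible polynomial are similar. -/
theorem isConj_of_aeval_eq_zero {ι : Type*} [Fintype ι] [DecidableEq ι] {A B : Matrix ι ι F}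
    {f : F[X]} (hf : Irreducible f) (hA : aeval A f = 0) (hB : aeval B f = 0) : IsConj A B := by
  refine H66.isConj_iff_rank_eq.2 fun φ => ?_
  by_cases h : f ∣ φ
  · obtain ⟨c, rfl⟩ := h
    rw [map_mul, map_mul, hA, hB, zero_mul, zero_mul]
  obtain ⟨u, v, huv⟩ := hf.coprime_iff_not_dvd.2 h
  have key : ∀ M : Matrix ι ι F, aeval M f = 0 → (aeval M φ).rank = Fintype.card ι := fun M hM => by
    refine Matrix.rank_of_isUnit _ ?_
    have h1 := congrArg (aeval M) huv
    rw [map_add, map_mul, map_mul, hM, mul_zero, zero_add, map_one] at h1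
    exact IsUnit.of_mul_eq_one_right (aeval M v) h1
  rw [key A hA, key B hB]

/-- `PSL_n` is covered by two classes when rootless polynomials of degree `n` have all factors of
degree divisible by `d`. -/
theorem twoCover_psl [NeZero n] {d : ℕ} (hd : 2 ≤ d) (hn : 2 ≤ n) (hdn : d ∣ n)
    (hfac : ∀ χ p : F[X], χ.natDegree = n → (∀ r, ¬ χ.IsRoot r) → p.Monic → Irreducible p → p ∣ χ →
      d ∣ p.natDegree) : TwoCover (Matrix.ProjectiveSpecialLinearGroup (Fin n) F) := by
  classical
  obtain ⟨p, hp⟩ := CharP.exists F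
  have : Fact p.Prime := ⟨CharP.char_is_prime F p⟩
  obtain ⟨f₀, hm₀, hi₀, hd₀⟩ := exists_irreducible_deg (F := F) (n := d) (by omega)
  set E := FiniteField.Extension F p n
  have : Fact (Irreducible f₀) := ⟨hi₀⟩
  obtain ⟨φ⟩ := FiniteField.nonempty_algHom_of_finrank_dvd (F := F) (K := AdjoinRoot f₀) (L := E) (by
    rw [(AdjoinRoot.powerBasis hi₀.ne_zero).finrank, AdjoinRoot.powerBasis_dim, hd₀,
      FiniteField.finrank_extension]
    exact hdn)
  set θ : E := φ (AdjoinRoot.root f₀)
  have hθ : aeval θ f₀ = 0 := by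
    rw [aeval_algHom_apply, AdjoinRoot.aeval_eq, AdjoinRoot.mk_self, map_zero]
  let b : Module.Basis (Fin n) F E := Module.finBasisOfFinrankEq F E (FiniteField.finrank_extension _ _ _)
  set J₀ := Algebra.leftMulMatrix b θ with hJ₀
  have hJ : aeval J₀ f₀ = 0 := by rw [hJ₀, aeval_algHom_apply, hθ, map_zero]
  set e₀ : Fin n → F := Pi.single 0 1 with he₀
  -- the point stabiliser
  let H : Subgroup (Matrix.SpecialLinearGroup (Fin n) F) :=
    { carrier := {g | ∃ c : F, (g : Matrix (Fin n) (Fin n) F) *ᵥ e₀ = c • e₀}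
      one_mem' := ⟨1, by simp⟩
      mul_mem' := by
        rintro g h ⟨c, hc⟩ ⟨c', hc'⟩
        exact ⟨c' * c, (show (g.1 * h.1) *ᵥ e₀ = (c' * c) • e₀ by
          rw [← mulVec_mulVec, hc', mulVec_smul, hc, smul_smul])⟩
      inv_mem' := by
        rintro g ⟨c, hc⟩
        have h0 : (g⁻¹ : Matrix.SpecialLinearGroup (Fin n) F).1 * g.1 = 1 :=
          congrArg Subtype.val (inv_mul_cancel g)
        have h1 := congrArg ((g⁻¹ : Matrix.SpecialLinearGroup (Fin n) F).1 *ᵥ ·) hc
        simp only [mulVec_mulVec, h0, one_mulVec, mulVec_smul] at h1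
        have hc0 : c ≠ 0 := by
          rintro rfl
          rw [zero_smul] at h1
          exact one_ne_zero (Pi.single_eq_zero_iff.1 h1)
        exact ⟨c⁻¹, (eq_inv_smul_iff₀ hc0).2 h1.symm⟩ }
  let K : Subgroup (Matrix.SpecialLinearGroup (Fin n) F) :=
    { carrier := {g | Commute (g : Matrix (Fin n) (Fin n) F) J₀}
      one_mem' := Commute.one_left _
      mul_mem' := fun {g h} hg hh => by
        show Commute (g.1 * h.1) J₀
        exact Commute.mul_left hg hh
      inv_mem' := fun {g} hg => by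
        show Commute ((g⁻¹ : Matrix.SpecialLinearGroup (Fin n) F) : Matrix (Fin n) (Fin n) F) J₀
        have h1 := (show Commute (Matrix.SpecialLinearGroup.toGL g : GL (Fin n) F).val J₀ from hg).units_inv_left
        rw [← map_inv] at h1
        exact h1 }
  refine twoCover_quotient (Subgroup.center _) (H := H) (K := K) (fun h => ?_) (fun h => ?_) ?_ ?_ ?_
  · -- `H` is proper
    have h1 : (⟨1, by omega⟩ : Fin n) ≠ 0 := fun h => absurd (congrArg Fin.val h) (by simp)
    let t : Matrix.TransvectionStruct (Fin n) F := ⟨⟨1, by omega⟩, 0, h1, 1⟩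
    have hT : ∀ T : Matrix.SpecialLinearGroup (Fin n) F, T ∈ H := fun T => by rw [h]; trivial
    obtain ⟨c, hc⟩ := hT ⟨t.toMatrix, t.det⟩
    have h2 := congrFun hc ⟨1, by omega⟩
    simp [he₀, t, Matrix.TransvectionStruct.toMatrix, Matrix.transvection, h1] at h2
  · -- `K` is proper
    have hT : ∀ T : Matrix.SpecialLinearGroup (Fin n) F, T ∈ K := fun T => by rw [h]; trivial
    have h1 := Matrix.mem_range_scalar_of_commute_transvectionStruct (M := J₀) fun t => hT ⟨t.toMatrix, t.det⟩
    obtain ⟨r, hr⟩ := h1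
    have h2 : θ = algebraMap F E r := Algebra.leftMulMatrix_injective b (by
      rw [← hJ₀, ← hr, AlgHom.commutes, Matrix.algebraMap_eq_diagonal, Matrix.scalar_apply]
      rfl)
    rw [h2, aeval_algebraMap_apply, map_eq_zero_iff _ (algebraMap F E).injective] at hθ
    have h3 := Polynomial.degree_eq_one_of_irreducible_of_root hi₀ (x := r) hθ
    rw [degree_eq_natDegree hi₀.ne_zero, hd₀] at h3
    norm_cast at h3
    omega
  · intro g hg
    obtain ⟨r, -, hr⟩ := Matrix.SpecialLinearGroup.mem_center_iff.1 hg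
    exact ⟨r, by rw [← hr, Matrix.scalar_apply]; ext i; simp [mulVec_diagonal]⟩
  · intro g hg
    obtain ⟨r, -, hr⟩ := Matrix.SpecialLinearGroup.mem_center_iff.1 hg
    show Commute (g : Matrix (Fin n) (Fin n) F) J₀
    rw [← hr]
    exact scalar_commute r (Commute.all r) J₀
  intro g
  set M : Matrix (Fin n) (Fin n) F := (g : Matrix (Fin n) (Fin n) F) with hM
  by_cases hroot : ∃ r, M.charpoly.IsRoot r
  · obtain ⟨r, hr⟩ := hroot
    obtain ⟨v, hv, hgv⟩ := exists_eigvec M hr
    obtain ⟨i, hi⟩ : ∃ i, v i ≠ 0 := Function.ne_iff.1 hv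
    set A := (1 : Matrix (Fin n) (Fin n) F).updateCol i v * (Equiv.swap 0 i).permMatrix F with hA
    have hAe : A *ᵥ e₀ = v := by
      rw [hA, ← mulVec_mulVec, Matrix.permMatrix_mulVec,
        show e₀ ∘ (Equiv.swap 0 i) = Pi.single i 1 from ?_]
      · ext j; simp
      · ext j
        simp only [he₀, Function.comp_apply, Pi.single_apply]
        exact if_congr ⟨fun h => by
          have := congrArg (Equiv.swap 0 i) h
          simpa using this, fun h => by simp [h]⟩ rfl rfl
    have hAd : A.det ≠ 0 := by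
      rw [hA, det_mul, Matrix.det_permutation]
      refine mul_ne_zero ?_ ?_
      · rw [← Matrix.cramer_apply, Matrix.cramer_one]; simpa using hi
      · rcases Int.units_eq_one_or (Equiv.Perm.sign (Equiv.swap 0 i)) with h | h <;> rw [h] <;> simp
    set c := A.det⁻¹
    let y : Matrix.SpecialLinearGroup (Fin n) F :=
      ⟨A * diagonal (Function.update (1 : Fin n → F) 0 c), by
        rw [det_mul, det_diagonal, Finset.prod_update_of_mem (Finset.mem_univ 0)]
        simp [c, hAd]⟩
    have hy : (y : Matrix (Fin n) (Fin n) F) *ᵥ e₀ = c • v := by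
      show (A * _) *ᵥ e₀ = _
      rw [← mulVec_mulVec, show diagonal (Function.update (1 : Fin n → F) 0 c) *ᵥ e₀ = c • e₀ from ?_,
        mulVec_smul, hAe]
      ext j
      by_cases hj : j = 0
      · subst hj; simp [mulVec_diagonal, he₀]
      · simp [mulVec_diagonal, he₀, hj]
    refine ⟨y⁻¹, Or.inl ⟨r, ?_⟩⟩
    rw [inv_inv, Matrix.SpecialLinearGroup.coe_mul, Matrix.SpecialLinearGroup.coe_mul, ← mulVec_mulVec, hy,
      ← mulVec_mulVec, mulVec_smul, hgv, smul_comm c r, mulVec_smul, ← hy, mulVec_mulVec,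
      ← Matrix.SpecialLinearGroup.coe_mul, inv_mul_cancel, Matrix.SpecialLinearGroup.coe_one, one_mulVec]
  · push Not at hroot
    obtain ⟨P, hP⟩ := exists_aeval_root M hi₀ fun p hpm hpi hpd => by
      rw [hd₀]
      exact hfac _ p (by rw [Matrix.charpoly_natDegree_eq_dim, Fintype.card_fin]) hroot hpm hpi hpd
    obtain ⟨Q, hQ⟩ := isConj_of_aeval_eq_zero hi₀ hP hJ
    obtain ⟨e, he⟩ := FiniteField.norm_surjective F E ((Q : Matrix (Fin n) (Fin n) F).det)⁻¹
    have hQd : (Q : Matrix (Fin n) (Fin n) F).det ≠ 0 :=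
      ((Matrix.isUnit_iff_isUnit_det _).1 Q.isUnit).ne_zero
    let x : Matrix.SpecialLinearGroup (Fin n) F :=
      ⟨Algebra.leftMulMatrix b e * (Q : Matrix (Fin n) (Fin n) F), by
        rw [det_mul, ← Algebra.norm_eq_matrix_det, he, inv_mul_cancel₀ hQd]⟩
    refine ⟨x, Or.inr ?_⟩
    have hMJ : Commute M (aeval M P) := by
      simpa using (Commute.all X P).map (aeval M)
    have hsemi : SemiconjBy (x : Matrix (Fin n) (Fin n) F) (aeval M P) J₀ :=
      SemiconjBy.mul_left ((Commute.all e θ).map (Algebra.leftMulMatrix b)) hQ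
    have hsemi' : SemiconjBy ((x⁻¹ : Matrix.SpecialLinearGroup (Fin n) F) : Matrix (Fin n) (Fin n) F)
        J₀ (aeval M P) := by
      have := (show SemiconjBy (Matrix.SpecialLinearGroup.toGL x : GL (Fin n) F).val (aeval M P) J₀ from
        hsemi).units_inv_symm_left
      rw [← map_inv] at this
      exact this
    show Commute ((x * g * x⁻¹ : Matrix.SpecialLinearGroup (Fin n) F) : Matrix (Fin n) (Fin n) F) J₀
    rw [Matrix.SpecialLinearGroup.coe_mul, Matrix.SpecialLinearGroup.coe_mul, ← hM]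
    exact (hsemi.mul_left hMJ).mul_left hsemi'

omit [Finite F] in
/-- The degree condition in dimensions two, three and four. -/
theorem dvd_factor_natDegree {χ p : F[X]} {n d : ℕ} (hnd : (n, d) = (2, 2) ∨ (n, d) = (3, 3) ∨ (n, d) = (4, 2))
    (hχd : χ.natDegree = n) (hroot : ∀ r, ¬ χ.IsRoot r) (hpi : Irreducible p) (hpd : p ∣ χ) :
    d ∣ p.natDegree := by
  have hχ0 : χ ≠ 0 := fun h => hroot 0 (by simp [h])
  have hno : ∀ a : F[X], a ∣ χ → a.natDegree ≠ 1 := fun a ha h1 => by
    obtain ⟨r, hr⟩ := Polynomial.exists_root_of_degree_eq_one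
      ((degree_eq_iff_natDegree_eq (ne_zero_of_dvd_ne_zero hχ0 ha)).2 h1)
    exact hroot r (hr.dvd ha)
  obtain ⟨c, hc⟩ := hpd
  have h1 := hno p ⟨c, hc⟩
  have h2 := hno c ⟨p, by rw [hc, mul_comm]⟩
  have h3 : 0 < p.natDegree := hpi.natDegree_pos
  have h4 : χ.natDegree = p.natDegree + c.natDegree := by
    rw [hc, natDegree_mul hpi.ne_zero (right_ne_zero_of_mul (hc ▸ hχ0))]
  rcases hnd with h | h | h <;> cases h <;>
    (have : p.natDegree ≤ 4 := by omega
     interval_cases hh : p.natDegree <;> first | omega | norm_num)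

end Cfsg.Agent.H62.Covering
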