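/-
Subspace stabilisers in `SU` and transport into standard positions.
-/
import Cfsg.Agent.H62.Covering.Basic
import Cfsg.Agent.H3.Geometry
import Cfsg.Agent.H3.Isotropic
import Cfsg.Agent.H66.SemisimpleSU

set_option autoImplicit false

open Matrix Cfsg Polynomial

namespace Cfsg.Agent.H62.Covering

variable {F : Type*} [Field F] [Fintype F] {q n : ℕ}

/-- The action of an element of `SU` on column vectors. -/
abbrev act (g : SU n F q) : Matrix (Fin n) (Fin n) F := (g.1 : Matrix (Fin n) (Fin n) F)

omit [Fintype F] in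
theorem act_mul (g h : SU n F q) : act (g * h) = act g * act h := H3.SU_mul_val g h

omit [Fintype F] in
theorem act_one : act (1 : SU n F q) = 1 := rfl

omit [Fintype F] in
theorem act_inv_mul (g : SU n F q) : act g⁻¹ * act g = 1 := by
  rw [← act_mul, inv_mul_cancel, act_one]

/-- The stabiliser of a subspace in `SU`. -/
def suStab (q : ℕ) (W : Submodule F (Fin n → F)) : Subgroup (SU n F q) where
  carrier := {g | W.map (toLin' (act g)) = W}
  one_mem' := by simp only [Set.mem_ofPred_eq, act_one, toLin'_one, Submodule.map_id]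
  mul_mem' := fun {g h} hg hh => by
    show W.map (toLin' (act (g * h))) = W
    rw [act_mul, toLin'_mul, Submodule.map_comp, hh, hg]
  inv_mem' := fun {g} hg => by
    show W.map (toLin' (act g⁻¹)) = W
    conv_lhs => rw [← (show W.map (toLin' (act g)) = W from hg)]
    rw [← Submodule.map_comp, ← toLin'_mul, act_inv_mul, toLin'_one, Submodule.map_id]

omit [Fintype F] in
/-- Invariance suffices for membership. -/
theorem mem_suStab {W : Submodule F (Fin n → F)} {g : SU n F q}
    (h : ∀ x ∈ W, act g *ᵥ x ∈ W) : g ∈ suStab q W := by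
  show W.map (toLin' (act g)) = W
  refine Submodule.eq_of_le_of_finrank_eq (Submodule.map_le_iff_le_comap.2 fun x hx => h x hx) ?_
  refine LinearEquiv.finrank_eq (Submodule.equivMapOfInjective (toLin' (act g))
    (Function.LeftInverse.injective (g := toLin' (act g⁻¹)) fun x => ?_) W).symm
  rw [toLin'_apply, toLin'_apply, mulVec_mulVec, act_inv_mul, one_mulVec]

/-- Scalars stabilise every subspace. -/
theorem center_le_suStab (hF : Fintype.card F = q ^ 2) (hn : 2 ≤ n) (W : Submodule F (Fin n → F)) :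
    Subgroup.center (SU n F q) ≤ suStab q W := fun g hg => by
  obtain ⟨l, hl⟩ := (H3.mem_center_SU_iff hF hn g).1 hg
  exact mem_suStab fun x hx => by rw [hl]; exact W.smul_mem l hx

/-- A subspace stabiliser is proper once an isotropic vector outside pairs with it. -/
theorem suStab_ne_top (hF : Fintype.card F = q ^ 2) {W : Submodule F (Fin n → F)} {x v : Fin n → F}
    (hx : x ∈ W) (hv : hermForm n F q v v = 0) (hvW : v ∉ W) (hxv : hermForm n F q x v ≠ 0) :
    suStab q W ≠ ⊤ := by
  intro htop
  obtain ⟨c, hc0, hc⟩ := H3.exists_trace_zero_ne_zero hF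
  have h1 : H3.suTrans hF v c hv hc ∈ suStab q W := htop ▸ Subgroup.mem_top _
  have h2 : act (H3.suTrans hF v c hv hc) *ᵥ x ∈ W := by
    rw [← toLin'_apply]
    exact (show W.map _ = W from h1).le (Submodule.mem_map_of_mem hx)
  rw [act, H3.suTrans, H3.unitaryTransvection_mulVec, Submodule.add_mem_iff_right _ hx,
    W.smul_mem_iff (mul_ne_zero hc0 hxv)] at h2
  exact hvW h2

/-- Transport into a standard subspace, correcting the determinant inside its stabiliser. -/
theorem exists_conj_mem_suStab
    {W W' : Submodule F (Fin n → F)} (y : GU n F q)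
    (hy : W'.map (toLin' (y.1 : Matrix (Fin n) (Fin n) F)) = W)
    (hdet : ∀ u ∈ (H3.guDet n F q).range, ∃ z : GU n F q,
      W.map (toLin' (z.1 : Matrix (Fin n) (Fin n) F)) = W ∧ H3.guDet n F q z = u)
    (g : SU n F q) (hg : ∀ x ∈ W', act g *ᵥ x ∈ W') :
    ∃ x : SU n F q, x * g * x⁻¹ ∈ suStab q W := by
  obtain ⟨z, hzW, hz⟩ := hdet (H3.guDet n F q y)⁻¹ (inv_mem ⟨y, rfl⟩)
  have hk : z * y ∈ (H3.guDet n F q).ker := by rw [MonoidHom.mem_ker, map_mul, hz, inv_mul_cancel]
  set x : SU n F q := (H3.suEquivKer n F q).symm ⟨z * y, hk⟩ with hx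
  refine ⟨x, ?_⟩
  have hxW : W'.map (toLin' (act x)) = W := by
    rw [show act x = (z.1 : Matrix (Fin n) (Fin n) F) * (y.1 : Matrix (Fin n) (Fin n) F) from rfl,
      toLin'_mul, Submodule.map_comp, hy, hzW]
  show W.map (toLin' (act (x * g * x⁻¹))) = W
  conv_lhs => rw [← hxW]
  rw [← Submodule.map_comp, ← toLin'_mul, ← act_mul, inv_mul_cancel_right, act_mul, toLin'_mul,
    Submodule.map_comp, (show W'.map (toLin' (act g)) = W' from mem_suStab hg), hxW]

/-- The span of the first coordinate vector. -/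
def pointSpan (n : ℕ) [NeZero n] (F : Type*) [Field F] : Submodule F (Fin n → F) :=
  Submodule.span F {Pi.single 0 1}

/-- The point stabiliser is proper. -/
theorem pointStab_ne_top (hF : Fintype.card F = q ^ 2) (hn : 2 ≤ n) [NeZero n] :
    suStab q (pointSpan n F) ≠ ⊤ := by
  obtain ⟨a, -, -, ha, -⟩ := H3.exists_two_norm_neg_one hF
  have h01 : (0 : Fin n) ≠ ⟨1, by omega⟩ := fun h => absurd (congrArg Fin.val h) (by simp)
  refine suStab_ne_top hF (Submodule.mem_span_singleton_self _)
    (H3.hermForm_pair_isotropic hF h01 ha) ?_ ?_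
  · rw [pointSpan, Submodule.mem_span_singleton]
    rintro ⟨c, hc⟩
    have := congrFun hc ⟨1, by omega⟩
    simp [h01.symm] at this
    exact absurd ha (by subst this; simp [zero_pow (Nat.succ_ne_zero q)])
  · rw [H3.hermForm_single_left]
    simp [h01]

/-- A non-isotropic eigenvector moves an element into the point stabiliser. -/
theorem exists_conj_point (hF : Fintype.card F = q ^ 2) [NeZero n] {g : SU n F q} {v : Fin n → F}
    {c : F} (hv : hermForm n F q v v ≠ 0) (hg : act g *ᵥ v = c • v) :
    ∃ x : SU n F q, x * g * x⁻¹ ∈ suStab q (pointSpan n F) := by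
  classical
  obtain ⟨d, hd0, hd⟩ := (H3.isHerm_hermB hF n).exists_smul_self_eq_one (v := v) hv
  rw [H3.hermB_apply] at hd
  set e₀ : Fin n → F := Pi.single 0 1 with he₀
  have hee : hermForm n F q e₀ e₀ = 1 := by simp [he₀, H3.hermForm_single_left]
  obtain ⟨y, hy⟩ := H3.exists_GU_mulVec_eq hF (v := d • v) (w := e₀)
    (fun h => by rw [h, H3.hermForm_zero_left hF] at hd; exact zero_ne_one hd) (by simp [he₀])
    (by rw [hd, hee])
  refine exists_conj_mem_suStab y (W' := Submodule.span F {d • v}) ?_ ?_ g ?_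
  · rw [Submodule.map_span, Set.image_singleton, toLin'_apply, hy, pointSpan]
  · rintro u ⟨w, rfl⟩
    have hu : ((H3.guDet n F q w : Fˣ) : F) ^ (q + 1) = 1 := H3.det_GU hF w
    refine ⟨H3.guDiag (Function.update (fun _ => (1 : F)) 0 (H3.guDet n F q w : F)) fun i => ?_, ?_, ?_⟩
    · rcases eq_or_ne i 0 with rfl | h <;> simp [*, H3.det_GU hF w]
    · rw [pointSpan, Submodule.map_span, Set.image_singleton, toLin'_apply]
      refine (Submodule.span_singleton_eq_span_singleton).2 ⟨(H3.guDet n F q w)⁻¹, ?_⟩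
      ext i
      rcases eq_or_ne i 0 with rfl | h <;>
        simp [H3.guDiag, Units.smul_def,
          Matrix.GeneralLinearGroup.det_ne_zero (w : GL (Fin n) F), *]
    · ext
      simp [H3.guDiag, Finset.prod_update_of_mem]
  · intro x hx
    obtain ⟨r, rfl⟩ := Submodule.mem_span_singleton.1 hx
    refine Submodule.mem_span_singleton.2 ⟨r * c, ?_⟩
    rw [mulVec_smul, mulVec_smul, hg, smul_smul, smul_smul, smul_smul, mul_right_comm, mul_assoc]

/-- An invariant totally isotropic subspace moves an element into the standard stabiliser. -/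
theorem exists_conj_isotropic (hF : Fintype.card F = q ^ 2) (hn : 1 ≤ n) {k : ℕ}
    (b b₀ : H3.IsoFrame n F q k) {g : SU n F q}
    (hg : ∀ i, act g *ᵥ b.1 i ∈ Submodule.span F (Set.range b.1)) :
    ∃ x : SU n F q, x * g * x⁻¹ ∈ suStab q (Submodule.span F (Set.range b₀.1)) := by
  obtain ⟨y, hy⟩ := H3.exists_GU_witt hF b.1 b₀.1 b.2.1 b₀.2.1
    fun i j => (b.2.2 i j).trans (b₀.2.2 i j).symm
  refine exists_conj_mem_suStab y (W' := Submodule.span F (Set.range b.1)) ?_ ?_ g ?_
  · rw [Submodule.map_span, ← Set.range_comp]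
    exact congrArg (fun f => Submodule.span F (Set.range f)) (funext hy)
  · intro u hu
    rw [H3.range_guDet hF hn] at hu
    obtain ⟨z, hz, hzd⟩ := H3.exists_guStab_det hF hn _ b₀ rfl hu
    refine ⟨z, le_antisymm (Submodule.map_le_iff_le_comap.2 fun x hx =>
      (H3.mem_guStab.1 hz x).1 hx) fun x hx => ?_, hzd⟩
    refine ⟨((z⁻¹ : GU n F q).1 : Matrix (Fin n) (Fin n) F) *ᵥ x, ?_, ?_⟩
    · exact (H3.mem_guStab.1 (inv_mem hz) x).1 hx
    · show (z.1 : Matrix (Fin n) (Fin n) F) *ᵥ _ = x
      have := H3.inv_mulVec_GU z⁻¹ x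
      rwa [inv_inv] at this
  · intro x hx
    have h : Submodule.span F (Set.range b.1) ≤
        (Submodule.span F (Set.range b.1)).comap (toLin' (act g)) :=
      Submodule.span_le.2 (by rintro _ ⟨i, rfl⟩; exact hg i)
    exact h hx

omit [Fintype F] in
/-- The form is preserved. -/
theorem act_herm (g : SU n F q) (u v : Fin n → F) :
    hermForm n F q (act g *ᵥ u) (act g *ᵥ v) = hermForm n F q u v := g.2 u v

omit [Fintype F] in
/-- An eigenvalue is non-zero. -/
theorem eigen_ne_zero {g : SU n F q} {v : Fin n → F} {c : F} (hv : v ≠ 0)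
    (hg : act g *ᵥ v = c • v) : c ≠ 0 := by
  rintro rfl
  have h := congrArg (act g⁻¹ *ᵥ ·) hg
  simp only [mulVec_mulVec, act_inv_mul, one_mulVec, zero_smul, mulVec_zero] at h
  exact hv h

end Cfsg.Agent.H62.Covering
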