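/-
`PSU_4(q)` is covered by a point stabiliser and the stabiliser of a totally isotropic plane.
-/
import Cfsg.Agent.H62.Covering.UnitaryBasic
import Cfsg.Agent.H62.Covering.FrobRoots
import Cfsg.Agent.H62.Covering.Linear

set_option autoImplicit false

open Matrix Cfsg Polynomial

namespace Cfsg.Agent.H62.Covering

variable {F : Type*} [Field F] [Fintype F] {q n : ℕ}

omit [Fintype F] in
/-- Polynomials in a matrix commute with what the matrix commutes with. -/
theorem commute_aeval {A : Type*} [Ring A] [Algebra F A] {x y : A} (h : Commute x y) (P : F[X]) :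
    Commute (aeval x P) y := by
  induction P using Polynomial.induction_on' with
  | add a b ha hb => rw [map_add]; exact ha.add_left hb
  | monomial i a =>
    rw [aeval_monomial]
    exact Commute.mul_left (Algebra.commutes a y) (h.pow_left i)

/-- Moving the reversed conjugate polynomial across the form. -/
theorem herm_reflect (hF : Fintype.card F = q ^ 2) (g : SU n F q) (P : F[X]) (N : ℕ)
    (hP : P.natDegree ≤ N) : ∀ x y : Fin n → F,
    hermForm n F q (aeval (act g) ((P.map (H3.conjQ hF)).reflect N) *ᵥ x) (act g ^ N *ᵥ y) =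
      hermForm n F q x (aeval (act g) P *ᵥ y) := by
  have hinv : ∀ (i : ℕ) (u v : Fin n → F),
      hermForm n F q (act g ^ i *ᵥ u) (act g ^ i *ᵥ v) = hermForm n F q u v := fun i => by
    induction i with
    | zero => simp
    | succ i ih => intro u v; rw [pow_succ, ← mulVec_mulVec, ← mulVec_mulVec, ih, act_herm]
  refine Polynomial.induction_with_natDegree_le
    (fun P => ∀ x y : Fin n → F,
      hermForm n F q (aeval (act g) ((P.map (H3.conjQ hF)).reflect N) *ᵥ x) (act g ^ N *ᵥ y) =
        hermForm n F q x (aeval (act g) P *ᵥ y)) N ?_ ?_ ?_ P hP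
  · intro x y; simp [H3.hermForm_zero_left hF, H3.hermForm_zero_right hF]
  · intro i a _ hi x y
    rw [Polynomial.map_mul, map_C, Polynomial.map_pow, map_X, reflect_C_mul_X_pow, revAt_le hi, map_mul,
      map_mul, aeval_C, aeval_C, map_pow, map_pow, aeval_X, ← Algebra.smul_def, ← Algebra.smul_def,
      smul_mulVec, smul_mulVec, H3.hermForm_smul_left hF, H3.hermForm_smul_right hF, H3.conjQ_apply]
    rw [show act g ^ N *ᵥ y = act g ^ (N - i) *ᵥ (act g ^ i *ᵥ y) by
      rw [mulVec_mulVec, ← pow_add, Nat.sub_add_cancel hi], hinv]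
  · intro f₁ f₂ _ _ ihf ihg x y
    rw [Polynomial.map_add, reflect_add, map_add, map_add, add_mulVec, add_mulVec,
      H3.hermForm_add_left hF, H3.hermForm_add_right hF, ihf, ihg]

/-- The kernel of a non-self-dual irreducible polynomial is totally isotropic. -/
theorem herm_ker_eq_zero (hF : Fintype.card F = q ^ 2) (g : SU n F q) {p : F[X]} (hpi : Irreducible p)
    (hpm : p.Monic) (h0 : p.coeff 0 ≠ 0) (hd : H67.dualPoly (H3.conjQ hF) p ≠ p) {x y : Fin n → F}
    (hx : aeval (act g) p *ᵥ x = 0) (hy : aeval (act g) p *ᵥ y = 0) :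
    hermForm n F q x y = 0 := by
  set σ := H3.conjQ hF
  have hnot : ¬ p ∣ H67.dualPoly σ p := fun h => hd
    (eq_of_monic_of_associated hpm (H67.dualPoly_monic h0)
      (hpi.associated_of_dvd (H67.dualPoly_irreducible (H3.conjQ_conjQ hF) hpm h0 hpi) h)).symm
  obtain ⟨u, v, huv⟩ := hpi.coprime_iff_not_dvd.2 hnot
  set r := (p.map σ).reverse with hr
  -- `x` lies in the image of `r`
  have hx' : aeval (act g) r *ᵥ (aeval (act g) (v * C (σ (p.coeff 0))⁻¹) *ᵥ x) = x := by
    have h1 := congrArg (fun e => aeval (act g) e *ᵥ x) huv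
    simp only [map_add, map_one, one_mulVec, add_mulVec] at h1
    rw [map_mul (aeval (act g)) u p, ← mulVec_mulVec, hx, mulVec_zero, zero_add] at h1
    rw [mulVec_mulVec, ← map_mul]
    rw [H67.dualPoly, ← hr] at h1
    conv_rhs => rw [← h1]
    congr 2
    ring
  -- `y` is a power of `g` applied to a kernel vector
  have hcomm : Commute (aeval (act g) p) (act g⁻¹ ^ p.natDegree) := by
    have h : Commute (act g) (act g⁻¹) := by
      show act g * act g⁻¹ = act g⁻¹ * act g
      rw [← act_mul, ← act_mul, mul_inv_cancel, inv_mul_cancel]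
    exact (commute_aeval h p).pow_right _
  have hy' : aeval (act g) p *ᵥ (act g⁻¹ ^ p.natDegree *ᵥ y) = 0 := by
    rw [mulVec_mulVec, hcomm.eq, ← mulVec_mulVec, hy, mulVec_zero]
  have hy2 : act g ^ p.natDegree *ᵥ (act g⁻¹ ^ p.natDegree *ᵥ y) = y := by
    rw [mulVec_mulVec, ← (show Commute (act g) (act g⁻¹) by
      show act g * act g⁻¹ = act g⁻¹ * act g
      rw [← act_mul, ← act_mul, mul_inv_cancel, inv_mul_cancel]).mul_pow, ← act_mul, mul_inv_cancel,
      act_one, one_pow, one_mulVec]
  have key := herm_reflect hF g p p.natDegree le_rfl (aeval (act g) (v * C (σ (p.coeff 0))⁻¹) *ᵥ x)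
    (act g⁻¹ ^ p.natDegree *ᵥ y)
  rw [show (p.map σ).reflect p.natDegree = r by rw [hr, reverse, natDegree_map], hx', hy2, hy',
    H3.hermForm_zero_right hF] at key
  exact key

/-- An irreducible quadratic with non-trivial kernel gives an invariant isotropic plane. -/
theorem exists_frame_of_quadratic (hF : Fintype.card F = q ^ 2) (g : SU n F q) {p : F[X]}
    (hpi : Irreducible p) (hpm : p.Monic) (hp2 : p.natDegree = 2) {v : Fin n → F} (hv : v ≠ 0)
    (hpv : aeval (act g) p *ᵥ v = 0) :
    ∃ b : H3.IsoFrame n F q 2, ∀ i, act g *ᵥ b.1 i ∈ Submodule.span F (Set.range b.1) := by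
  have hroot : ∀ r, ¬ p.IsRoot r := fun r hr => by
    have h := Polynomial.degree_eq_one_of_irreducible_of_root hpi hr
    rw [degree_eq_natDegree hpi.ne_zero, hp2] at h
    norm_cast at h
  have h0 : p.coeff 0 ≠ 0 := fun h => hroot 0 (by rw [IsRoot, ← coeff_zero_eq_eval_zero, h])
  have hd : H67.dualPoly (H3.conjQ hF) p ≠ p := fun h => by
    have := odd_natDegree_of_selfDual hF hpi hpm h0 h
    rw [hp2] at this
    exact absurd this (by decide)
  have hpgv : aeval (act g) p *ᵥ (act g *ᵥ v) = 0 := by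
    rw [mulVec_mulVec, show aeval (act g) p * act g = act g * aeval (act g) p by
      conv_lhs => arg 2; rw [← aeval_X (R := F) (act g)]
      conv_rhs => arg 1; rw [← aeval_X (R := F) (act g)]
      rw [← map_mul, ← map_mul, mul_comm], ← mulVec_mulVec, hpv, mulVec_zero]
  have hquad : act g *ᵥ (act g *ᵥ v) = -(p.coeff 0) • v + -(p.coeff 1) • (act g *ᵥ v) := by
    have h : p = X ^ 2 + C (p.coeff 1) * X + C (p.coeff 0) := by
      conv_lhs => rw [hpm.as_sum, hp2]
      simp [Finset.sum_range_succ]
      ring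
    rw [h, map_add, map_add, aeval_X_pow, map_mul, aeval_C, aeval_C, aeval_X, add_mulVec, add_mulVec,
      ← Algebra.smul_def, smul_mulVec, Algebra.algebraMap_eq_smul_one, smul_mulVec, one_mulVec,
      pow_two, ← mulVec_mulVec] at hpv
    rw [neg_smul, neg_smul, ← sub_eq_zero, ← hpv]
    abel
  have hli : LinearIndependent F ![v, act g *ᵥ v] := by
    rw [LinearIndependent.pair_iff' hv]
    intro a ha
    rw [← ha, mulVec_smul, ← ha, smul_smul] at hquad
    refine hroot a ?_
    have h2 : (a * a + p.coeff 1 * a + p.coeff 0) • v = 0 := by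
      rw [add_smul, add_smul, hquad, ← smul_smul]
      simp only [neg_smul]
      abel
    rw [IsRoot, eval_eq_sum_range, hp2]
    have h3 := (smul_eq_zero.1 h2).resolve_right hv
    rw [Finset.sum_range_succ, Finset.sum_range_succ, Finset.sum_range_succ, Finset.sum_range_zero,
      show p.coeff 2 = 1 by rw [← hp2]; exact hpm.coeff_natDegree]
    linear_combination h3
  refine ⟨⟨![v, act g *ᵥ v], hli, fun i j => ?_⟩, fun i => ?_⟩
  · fin_cases i <;> fin_cases j <;> simp only [] <;>
      first
        | exact herm_ker_eq_zero hF g hpi hpm h0 hd hpv hpv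
        | exact herm_ker_eq_zero hF g hpi hpm h0 hd hpv hpgv
        | exact herm_ker_eq_zero hF g hpi hpm h0 hd hpgv hpv
        | exact herm_ker_eq_zero hF g hpi hpm h0 hd hpgv hpgv
  · fin_cases i
    · exact Submodule.subset_span ⟨1, rfl⟩
    · show act g *ᵥ (act g *ᵥ v) ∈ _
      rw [hquad]
      exact Submodule.add_mem _ (Submodule.smul_mem _ _ (Submodule.subset_span ⟨0, rfl⟩))
        (Submodule.smul_mem _ _ (Submodule.subset_span ⟨1, rfl⟩))

/-- A rootless monic quadratic is irreducible. -/
theorem irreducible_of_deg_two {p : F[X]} (hpm : p.Monic) (hp2 : p.natDegree = 2)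
    (hroot : ∀ r, ¬ p.IsRoot r) : Irreducible p :=
  (hpm.irreducible_iff_roots_eq_zero_of_degree_le_three (by omega) (by omega)).2
    (Multiset.eq_zero_of_forall_notMem fun r hr => hroot r (isRoot_of_mem_roots hr))

/-- Without eigenvalues an element of `SU_4` fixes a totally isotropic plane. -/
theorem su_four_rootless (hF : Fintype.card F = q ^ 2) (g : SU 4 F q)
    (hroot : ∀ r, ¬ (act g).charpoly.IsRoot r) :
    ∃ b : H3.IsoFrame 4 F q 2, ∀ i, act g *ᵥ b.1 i ∈ Submodule.span F (Set.range b.1) := by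
  set M := act g with hM
  have hm := M.charpoly_monic
  have hdeg : M.charpoly.natDegree = 4 := by rw [Matrix.charpoly_natDegree_eq_dim, Fintype.card_fin]
  have h0 : M.charpoly.coeff 0 ≠ 0 := fun h => hroot 0 (by rw [IsRoot, ← coeff_zero_eq_eval_zero, h])
  have hdual : H67.dualPoly (H3.conjQ hF) M.charpoly = M.charpoly :=
    H66.dualPoly_charpoly_of_mem_GU hF (g := Matrix.SpecialLinearGroup.toGL g.1) g.2
  have hni : ¬ Irreducible M.charpoly := fun hi => by
    have := odd_natDegree_of_selfDual hF hi hm h0 hdual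
    rw [hdeg] at this
    exact absurd this (by decide)
  rw [hm.irreducible_iff_natDegree] at hni
  push Not at hni
  obtain ⟨a, c, ha, hc, hac, ha0, hc0⟩ := hni (fun h => by simp [h] at hdeg)
  have hsum : a.natDegree + c.natDegree = 4 := by rw [← natDegree_mul ha.ne_zero hc.ne_zero, hac, hdeg]
  have hnotone : ∀ e : F[X], e ∣ M.charpoly → e.natDegree ≠ 1 := fun e he h1 => by
    obtain ⟨r, hr⟩ := Polynomial.exists_root_of_degree_eq_one
      ((degree_eq_iff_natDegree_eq (ne_zero_of_dvd_ne_zero hm.ne_zero he)).2 h1)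
    exact hroot r (hr.dvd he)
  have ha1 := hnotone a ⟨c, hac.symm⟩
  have hc1 := hnotone c ⟨a, by rw [mul_comm, hac]⟩
  have hai := irreducible_of_deg_two ha (by omega) fun r hr => hroot r (hr.dvd ⟨c, hac.symm⟩)
  have hci := irreducible_of_deg_two hc (by omega) fun r hr => hroot r (hr.dvd ⟨a, by rw [mul_comm, hac]⟩)
  have h1 : aeval M a * aeval M c = 0 := by rw [← map_mul, hac, Matrix.aeval_self_charpoly]
  set e : Fin 4 → F := Pi.single 0 1 with he
  by_cases h2 : aeval M c *ᵥ e = 0
  · exact exists_frame_of_quadratic hF g hci hc (by omega) (by simp [he]) h2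
  · exact exists_frame_of_quadratic hF g hai ha (by omega) h2
      (by rw [mulVec_mulVec, h1, zero_mulVec])

/-- Every element of `SU_4` fixes a non-isotropic point or a totally isotropic plane. -/
theorem su_four_cases (hF : Fintype.card F = q ^ 2) (g : SU 4 F q) :
    (∃ (v : Fin 4 → F) (c : F), hermForm 4 F q v v ≠ 0 ∧ act g *ᵥ v = c • v) ∨
    ∃ b : H3.IsoFrame 4 F q 2, ∀ i, act g *ᵥ b.1 i ∈ Submodule.span F (Set.range b.1) := by
  classical
  set M := act g with hM
  by_cases hroot : ∃ r, M.charpoly.IsRoot r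
  swap
  · exact Or.inr (su_four_rootless hF g fun r hr => hroot ⟨r, hr⟩)
  obtain ⟨l, hl⟩ := hroot
  obtain ⟨v, hv, hgv⟩ := exists_eigvec M hl
  by_cases hvv : hermForm 4 F q v v = 0
  swap
  · exact Or.inl ⟨v, l, hvv, hgv⟩
  have hl0 : l ≠ 0 := eigen_ne_zero hv hgv
  obtain ⟨u, huv⟩ := H3.exists_hermForm_eq_one hF hv
  have hvu : hermForm 4 F q v u = 1 := by rw [← H3.hermForm_pow_q hF, huv, one_pow]
  -- the orthogonal of `v` and `u`
  let f : (Fin 4 → F) →ₗ[F] F × F := (H3.hermB hF 4 v).prod (H3.hermB hF 4 u)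
  set Q := LinearMap.ker f with hQ
  have hQm : ∀ {w}, w ∈ Q ↔ hermForm 4 F q w v = 0 ∧ hermForm 4 F q w u = 0 := fun {w} => by
    simp [hQ, f]
  have hQfin : Module.finrank F Q = 2 := by
    have hsurj : LinearMap.range f = ⊤ := by
      rw [eq_top_iff]
      rintro ⟨a, b⟩ -
      refine ⟨a • u + (b - a * hermForm 4 F q u u) • v, ?_⟩
      simp [f, huv, hvu, hvv, H3.hermForm_add_left hF, H3.hermForm_smul_left hF]
    have := f.finrank_range_add_finrank_ker
    rw [hsurj, finrank_top, Module.finrank_prod, Module.finrank_self, Module.finrank_fintype_fun_eq_card,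
      Fintype.card_fin, ← hQ] at this
    omega
  have hgQ : ∀ w ∈ Q, hermForm 4 F q (M *ᵥ w) v = 0 := fun w hw => by
    have h := act_herm g w v
    rw [← hM, hgv, H3.hermForm_smul_right hF, (hQm.1 hw).1, mul_eq_zero] at h
    exact h.resolve_left (pow_ne_zero q hl0)
  let A : Q →ₗ[F] Q :=
    ((toLin' M - ((H3.hermB hF 4 u).comp (toLin' M)).smulRight v).comp Q.subtype).codRestrict Q fun w => by
      rw [hQm]
      simp [H3.hermForm_sub_left hF, H3.hermForm_smul_left hF, hgQ w.1 w.2, hvv, hvu]
  have hA : ∀ w : Q, M *ᵥ w.1 = (A w).1 + hermForm 4 F q (M *ᵥ w.1) u • v := fun w => by simp [A]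
  -- eigenvectors of `A`
  have hlift : ∀ (w : Q) (μ : F), w ≠ 0 → A w = μ • w → μ ≠ l → hermForm 4 F q w.1 w.1 ≠ 0 →
      ∃ (v : Fin 4 → F) (c : F), hermForm 4 F q v v ≠ 0 ∧ M *ᵥ v = c • v := fun w μ _ hw hμ hww => by
    set β := hermForm 4 F q (M *ᵥ w.1) u
    refine ⟨w.1 + (β / (μ - l)) • v, μ, ?_, ?_⟩
    · simp [H3.hermForm_add_left hF, H3.hermForm_add_right hF, H3.hermForm_smul_left hF,
        H3.hermForm_smul_right hF, hvv, (hQm.1 w.2).1, (H3.hermForm_eq_zero_comm hF).1 (hQm.1 w.2).1, hww]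
    · rw [mulVec_add, mulVec_smul, hgv, hA, hw, Submodule.coe_smul, smul_add, smul_smul, smul_smul,
        add_assoc, ← add_smul]
      congr 2
      field_simp [sub_ne_zero.2 hμ]
      ring
  have hplane : ∀ (w : Q) (μ : F), w ≠ 0 → A w = μ • w → hermForm 4 F q w.1 w.1 = 0 →
      ∃ b : H3.IsoFrame 4 F q 2, ∀ i, M *ᵥ b.1 i ∈ Submodule.span F (Set.range b.1) := fun w μ hw hAw hww => by
    have hli : LinearIndependent F ![v, w.1] := by
      rw [LinearIndependent.pair_iff' hv]
      intro a ha
      have h1 := (hQm.1 w.2).2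
      rw [← ha, H3.hermForm_smul_left hF, hvu, mul_one] at h1
      exact hw (Subtype.ext (by rw [← ha, h1, zero_smul]; rfl))
    refine ⟨⟨![v, w.1], hli, fun i j => ?_⟩, fun i => ?_⟩
    · fin_cases i <;> fin_cases j <;>
        simp [hvv, hww, (hQm.1 w.2).1, (H3.hermForm_eq_zero_comm hF).1 (hQm.1 w.2).1]
    · fin_cases i
      · show M *ᵥ v ∈ _
        rw [hgv]
        exact Submodule.smul_mem _ _ (Submodule.subset_span ⟨0, rfl⟩)
      · show M *ᵥ w.1 ∈ _
        rw [hA, hAw, Submodule.coe_smul]
        exact Submodule.add_mem _ (Submodule.smul_mem _ _ (Submodule.subset_span ⟨1, rfl⟩))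
          (Submodule.smul_mem _ _ (Submodule.subset_span ⟨0, rfl⟩))
  by_cases hAe : ∃ (w : Q) (μ : F), w ≠ 0 ∧ A w = μ • w
  swap
  · -- no eigenvector: a quadratic irreducible kills a vector
    right
    push Not at hAe
    have hp2 : A.charpoly.natDegree = 2 := by rw [A.charpoly_natDegree, hQfin]
    have hproot : ∀ r, ¬ A.charpoly.IsRoot r := fun r hr => by
      rw [← Module.End.hasEigenvalue_iff_isRoot_charpoly] at hr
      obtain ⟨w, hw⟩ := hr.exists_hasEigenvector
      exact hAe w r hw.2 (Module.End.mem_eigenspace_iff.1 hw.1)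
    have hpi := irreducible_of_deg_two A.charpoly_monic hp2 hproot
    -- `p(M) w` is a multiple of `v`
    have hpow : ∀ (P : F[X]) (w : Q), ∃ c : F, aeval M P *ᵥ w.1 = (aeval A P w).1 + c • v := by
      intro P w
      induction P using Polynomial.induction_on' with
      | add P R hP hR =>
        obtain ⟨c, hc⟩ := hP
        obtain ⟨d, hd⟩ := hR
        refine ⟨c + d, ?_⟩
        rw [map_add, map_add, add_mulVec, hc, hd, LinearMap.add_apply, Submodule.coe_add, add_smul]
        abel
      | monomial i a =>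
        obtain ⟨c, hc⟩ : ∃ c : F, M ^ i *ᵥ w.1 = ((A ^ i) w).1 + c • v := by
          induction i with
          | zero => exact ⟨0, by simp⟩
          | succ i ih =>
            obtain ⟨c, hc⟩ := ih
            refine ⟨hermForm 4 F q (M *ᵥ ((A ^ i) w).1) u + c * l, ?_⟩
            rw [pow_succ', ← mulVec_mulVec, hc, mulVec_add, mulVec_smul, hgv]
            conv_lhs => rw [hA]
            rw [pow_succ',
              Module.End.mul_apply, smul_smul, add_smul, add_assoc]
        refine ⟨a * c, ?_⟩
        rw [aeval_monomial, aeval_monomial, ← Algebra.smul_def, ← Algebra.smul_def, smul_mulVec, hc,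
          LinearMap.smul_apply, Submodule.coe_smul, smul_add, smul_smul]
    obtain ⟨⟨w, hwQ⟩, hw⟩ : ∃ w : Q, w ≠ 0 := by
      have : Nontrivial Q := Module.nontrivial_of_finrank_eq_succ hQfin
      exact exists_ne 0
    obtain ⟨c, hc⟩ := hpow A.charpoly ⟨w, hwQ⟩
    rw [LinearMap.aeval_self_charpoly, LinearMap.zero_apply, Submodule.coe_zero, zero_add] at hc
    -- so `(M - l) w` is killed by `p(M)`
    set x := M *ᵥ w - l • w with hx
    have hpx : aeval M A.charpoly *ᵥ x = 0 := by
      rw [hx, mulVec_sub, mulVec_smul, mulVec_mulVec, show aeval M A.charpoly * M = M * aeval M A.charpoly by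
        conv_lhs => arg 2; rw [← aeval_X (R := F) M]
        conv_rhs => arg 1; rw [← aeval_X (R := F) M]
        rw [← map_mul, ← map_mul, mul_comm], ← mulVec_mulVec, hc, mulVec_smul, hgv, smul_comm, sub_self]
    refine exists_frame_of_quadratic hF g hpi A.charpoly_monic hp2 (fun h0 => ?_) hpx
    refine hAe ⟨w, hwQ⟩ l hw (Subtype.ext ?_)
    have h1 : M *ᵥ w = l • w := sub_eq_zero.1 h0
    have h2 := hA ⟨w, hwQ⟩
    dsimp only at h2
    rw [h1, H3.hermForm_smul_left hF, (hQm.1 hwQ).2, mul_zero, zero_smul, add_zero] at h2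
    rw [Submodule.coe_smul]
    exact h2.symm
  obtain ⟨w, μ, hw, hAw⟩ := hAe
  by_cases hww : hermForm 4 F q w.1 w.1 = 0
  · exact Or.inr (hplane w μ hw hAw hww)
  by_cases hμ : μ = l
  swap
  · exact Or.inl (hlift w μ hw hAw hμ hww)
  subst hμ
  -- the orthogonal line of `w` in `Q`
  set fw : Q →ₗ[F] F := (H3.hermB hF 4 w.1).comp Q.subtype with hfw
  have hker : Module.finrank F (LinearMap.ker fw) = 1 := by
    have hsurj : LinearMap.range fw = ⊤ := by
      rw [eq_top_iff]
      intro a _
      exact ⟨(a / hermForm 4 F q w.1 w.1) • w, by simp [hfw, H3.hermForm_smul_left hF, hww]⟩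
    have := fw.finrank_range_add_finrank_ker
    rw [hsurj, finrank_top, Module.finrank_self, hQfin] at this
    omega
  obtain ⟨z, hz, hzne⟩ := Submodule.exists_mem_ne_zero_of_ne_bot (p := LinearMap.ker fw) fun h => by
    rw [h, finrank_bot] at hker
    exact zero_ne_one hker
  have hzs : Submodule.span F {z} = LinearMap.ker fw :=
    Submodule.eq_of_le_of_finrank_eq ((Submodule.span_singleton_le_iff_mem _ _).2 hz)
      (by rw [hker, finrank_span_singleton hzne])
  have hzspan : ∀ y ∈ LinearMap.ker fw, ∃ c : F, c • z = y := fun y hy =>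
    Submodule.mem_span_singleton.1 (hzs ▸ hy)
  have hz1 : hermForm 4 F q z.1 w.1 = 0 := hz
  have hzz : hermForm 4 F q z.1 z.1 ≠ 0 := by
    intro h
    refine hzne (Subtype.ext (funext fun i => ?_))
    have hx : ∀ x, hermForm 4 F q x z.1 = 0 := fun x => by
      set a := hermForm 4 F q x v
      set t := hermForm 4 F q x u - a * hermForm 4 F q u u
      have hx' : x - a • u - t • v ∈ Q := by
        rw [hQm]
        simp [H3.hermForm_sub_left hF, H3.hermForm_smul_left hF, huv, hvu, hvv, a, t]
      set y : Q := ⟨_, hx'⟩ with hy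
      set s := hermForm 4 F q y.1 w.1 / hermForm 4 F q w.1 w.1
      have hys : y - s • w ∈ LinearMap.ker fw := by
        simp [hfw, H3.hermForm_sub_left hF, H3.hermForm_smul_left hF, s, hww]
      obtain ⟨c, hc⟩ := hzspan _ hys
      have hc' := congrArg (fun e : Q => hermForm 4 F q e.1 z.1) hc
      simp [hy, H3.hermForm_sub_left hF, H3.hermForm_smul_left hF, h,
        (H3.hermForm_eq_zero_comm hF).1 hz1, (H3.hermForm_eq_zero_comm hF).1 (hQm.1 z.2).1,
        (H3.hermForm_eq_zero_comm hF).1 (hQm.1 z.2).2] at hc'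
      exact hc'.symm
    have := hx (Pi.single i 1)
    rw [H3.hermForm_single_left, one_mul] at this
    simpa using eq_zero_of_pow_eq_zero this
  obtain ⟨μ', hμ'⟩ : ∃ μ', A z = μ' • z := by
    have hmem : A z ∈ LinearMap.ker fw := by
      show hermForm 4 F q (A z).1 w.1 = 0
      have h := act_herm g z.1 w.1
      rw [← hM, hz1, hA w, hAw, Submodule.coe_smul, H3.hermForm_add_right hF, H3.hermForm_smul_right hF,
        H3.hermForm_smul_right hF, hgQ z.1 z.2, mul_zero, add_zero, mul_eq_zero] at h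
      have h2 := h.resolve_left (pow_ne_zero q (eigen_ne_zero hv hgv))
      rw [hA z, H3.hermForm_add_left hF, H3.hermForm_smul_left hF,
        (H3.hermForm_eq_zero_comm hF).1 (hQm.1 w.2).1, mul_zero, add_zero] at h2
      exact h2
    obtain ⟨c, hc⟩ := hzspan _ hmem
    exact ⟨c, hc.symm⟩
  by_cases hμl : μ' = μ
  swap
  · exact Or.inl (hlift z μ' hzne hμ' hμl hzz)
  subst hμl
  -- `A` is scalar: an isotropic vector of `Q`
  obtain ⟨s, hs⟩ := H3.exists_norm_eq hF (μ := -(hermForm 4 F q w.1 w.1 / hermForm 4 F q z.1 z.1)) (by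
    rw [← H3.conjQ_apply hF, map_neg, map_div₀, H3.conjQ_apply, H3.conjQ_apply, H3.hermForm_pow_q hF,
      H3.hermForm_pow_q hF])
  refine Or.inr (hplane (w + s • z) μ' ?_ (by rw [map_add, map_smul, hAw, hμ', smul_add, smul_comm]) ?_)
  · intro h
    have h1 := congrArg (fun e : Q => hermForm 4 F q e.1 w.1) h
    simp [H3.hermForm_add_left hF, H3.hermForm_smul_left hF, hz1, H3.hermForm_zero_left hF] at h1
    exact hww h1
  · simp only [Submodule.coe_add, Submodule.coe_smul, H3.hermForm_add_left hF, H3.hermForm_add_right hF,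
      H3.hermForm_smul_left hF, H3.hermForm_smul_right hF, hz1, (H3.hermForm_eq_zero_comm hF).1 hz1]
    rw [pow_succ'] at hs
    field_simp at hs
    linear_combination hs

/-- `PSU_4(q)` is covered by two classes. -/
theorem twoCover_psu_four (hF : Fintype.card F = q ^ 2) : TwoCover (Cfsg.PSU 4 F q) := by
  obtain ⟨a, a', haa, ha, ha'⟩ := H3.exists_two_norm_neg_one hF
  have hq : q ≠ 0 := by have := H3.two_le_q hF; omega
  set w₁ : Fin 4 → F := Pi.single 0 1 + a • Pi.single 1 1 with hw₁
  set w₂ : Fin 4 → F := Pi.single 2 1 + a • Pi.single 3 1 with hw₂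
  have hli : LinearIndependent F ![w₁, w₂] := by
    rw [LinearIndependent.pair_iff]
    intro s t h
    have h0 := congrFun h 0
    have h2 := congrFun h 2
    simp [hw₁, hw₂] at h0 h2
    exact ⟨h0, h2⟩
  have h21 : hermForm 4 F q w₁ w₂ = 0 := by
    rw [hw₁, H3.hermForm_add_left hF, H3.hermForm_smul_left hF, H3.hermForm_single_left,
      H3.hermForm_single_left]
    simp [hw₂, zero_pow hq]
  let b₀ : H3.IsoFrame 4 F q 2 := ⟨![w₁, w₂], hli, fun i j => by
    fin_cases i <;> fin_cases j <;>
      simp [hw₁, hw₂, H3.hermForm_pair_isotropic hF (show (0 : Fin 4) ≠ 1 by decide) ha,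
        H3.hermForm_pair_isotropic hF (show (2 : Fin 4) ≠ 3 by decide) ha] <;>
      first
        | exact h21
        | exact (H3.hermForm_eq_zero_comm hF).1 h21⟩
  refine twoCover_quotient (Subgroup.center _) (H := suStab q (pointSpan 4 F))
    (K := suStab q (Submodule.span F (Set.range b₀.1))) (pointStab_ne_top hF (by norm_num)) ?_
    (center_le_suStab hF (by norm_num) _) (center_le_suStab hF (by norm_num) _) fun g => ?_
  · refine suStab_ne_top hF (x := w₁) (Submodule.subset_span ⟨0, rfl⟩)
      (H3.hermForm_pair_isotropic hF (show (0 : Fin 4) ≠ 1 by decide) ha') ?_ ?_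
    · intro h
      rw [show b₀.1 = ![w₁, w₂] from rfl, Matrix.range_cons, Matrix.range_cons, Matrix.range_empty,
        Set.union_empty, Set.singleton_union, Submodule.mem_span_pair] at h
      obtain ⟨s, t, h⟩ := h
      have h0 := congrFun h 0
      have h1 := congrFun h 1
      simp [hw₁, hw₂] at h0 h1
      subst h0
      rw [one_mul] at h1
      exact haa h1
    · rw [hw₁, H3.hermForm_add_left hF, H3.hermForm_smul_left hF, H3.hermForm_single_left,
        H3.hermForm_single_left]
      simp only [Pi.add_apply, Pi.smul_apply, Pi.single_eq_same, Pi.single_eq_of_ne (show (0 : Fin 4) ≠ 1 by decide),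
        Pi.single_eq_of_ne (show (1 : Fin 4) ≠ 0 by decide), smul_eq_mul, mul_zero, add_zero, zero_add,
        mul_one, one_mul, one_pow]
      intro h
      have ha0 : a' ≠ 0 := fun h0 => by simp [h0] at ha'
      have h1 : (a - a') * a' ^ q = 0 := by
        rw [pow_succ'] at ha'
        linear_combination h - ha'
      rcases mul_eq_zero.1 h1 with h1 | h1
      · exact haa (sub_eq_zero.1 h1)
      · exact ha0 (eq_zero_of_pow_eq_zero h1)
  · rcases su_four_cases hF g with ⟨v, c, hv, hg⟩ | ⟨b, hb⟩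
    · obtain ⟨x, hx⟩ := exists_conj_point hF hv hg
      exact ⟨x, Or.inl hx⟩
    · obtain ⟨x, hx⟩ := exists_conj_isotropic hF (by norm_num) b b₀ hb
      exact ⟨x, Or.inr hx⟩

end Cfsg.Agent.H62.Covering
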