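/-
`PSU_3(q)`, `q` a power of three, is covered by a point stabiliser and a torus normaliser.
-/
import Cfsg.Agent.H62.Covering.UnitaryFour

set_option autoImplicit false

open Matrix Cfsg Polynomial

namespace Cfsg.Agent.H62.Covering

variable {F : Type*} [Field F] {ι : Type*} [Fintype ι] [DecidableEq ι]

/-- Identities modulo `f` hold at matrices killed by `f`. -/
theorem aeval_eq_of_mk_eq {A : Matrix ι ι F} {f P R : F[X]} (hA : aeval A f = 0)
    (h : AdjoinRoot.mk f P = AdjoinRoot.mk f R) : aeval A P = aeval A R := by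
  obtain ⟨c, hc⟩ := AdjoinRoot.mk_eq_mk.1 h
  rw [← sub_eq_zero, ← map_sub, hc, map_mul, hA, zero_mul]

/-- Non-multiples of an irreducible annihilator act injectively. -/
theorem dvd_of_aeval_mulVec_eq_zero {A : Matrix ι ι F} {f P : F[X]} (hf : Irreducible f)
    (hA : aeval A f = 0) {v : ι → F} (hv : v ≠ 0) (h : aeval A P *ᵥ v = 0) : f ∣ P := by
  by_contra hd
  obtain ⟨a, b, hab⟩ := hf.coprime_iff_not_dvd.2 hd
  have h1 := congrArg (fun e => aeval A e *ᵥ v) hab
  simp only [map_add, map_mul, hA, mul_zero, zero_add, map_one, one_mulVec, ← mulVec_mulVec, h,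
    mulVec_zero] at h1
  exact hv h1.symm

/-- A vector generates when the annihilator is irreducible of full degree. -/
theorem exists_aeval_mulVec_eq {A : Matrix ι ι F} {f : F[X]} (hf : Irreducible f)
    (hdeg : f.natDegree = Fintype.card ι) (hA : aeval A f = 0) {v : ι → F} (hv : v ≠ 0) (w : ι → F) :
    ∃ P : F[X], aeval A P *ᵥ v = w := by
  let φ : Polynomial.degreeLT F (Fintype.card ι) →ₗ[F] (ι → F) :=
    { toFun := fun P => aeval A (P : F[X]) *ᵥ v
      map_add' := fun P R => by rw [Submodule.coe_add, map_add, add_mulVec]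
      map_smul' := fun c P => by rw [Submodule.coe_smul, map_smul, smul_mulVec, RingHom.id_apply] }
  have : Module.Finite F (Polynomial.degreeLT F (Fintype.card ι)) :=
    Module.Finite.equiv (Polynomial.degreeLTEquiv F _).symm
  have hinj : Function.Injective φ := (injective_iff_map_eq_zero φ).2 fun P hP => by
    by_contra hne
    have hne' : (P : F[X]) ≠ 0 := fun h => hne (Subtype.ext h)
    have h1 := Polynomial.degree_le_of_dvd (dvd_of_aeval_mulVec_eq_zero hf hA hv hP) hne'
    have h2 := Polynomial.mem_degreeLT.1 P.2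
    rw [degree_eq_natDegree hf.ne_zero, hdeg] at h1
    exact absurd (lt_of_le_of_lt h1 h2) (lt_irrefl _)
  have hdim : Module.finrank F (Polynomial.degreeLT F (Fintype.card ι)) = Module.finrank F (ι → F) := by
    rw [(Polynomial.degreeLTEquiv F _).finrank_eq, Module.finrank_fintype_fun_eq_card,
      Module.finrank_fintype_fun_eq_card, Fintype.card_fin]
  obtain ⟨P, hP⟩ := (LinearMap.injective_iff_surjective_of_finrank_eq_finrank hdim).1 hinj w
  exact ⟨P, hP⟩

/-- Matrices that are nilpotent of index three in dimension three are similar. -/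
theorem isConj_of_nilpotent_three {A B : Matrix (Fin 3) (Fin 3) F} (hA : A * A * A = 0)
    (hA2 : A * A ≠ 0) (hB : B * B * B = 0) (hB2 : B * B ≠ 0) : IsConj A B := by
  have key : ∀ C : Matrix (Fin 3) (Fin 3) F, C * C * C = 0 → C * C ≠ 0 →
      ∃ b : Module.Basis (Fin 3) F (Fin 3 → F), C *ᵥ b 0 = b 1 ∧ C *ᵥ b 1 = b 2 ∧ C *ᵥ b 2 = 0 := by
    intro C h3 h2
    obtain ⟨v, hv⟩ : ∃ v, (C * C) *ᵥ v ≠ 0 := by
      by_contra h
      push Not at h
      exact h2 (Matrix.ext_of_mulVec_single fun i => by rw [h, zero_mulVec])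
    have hC3 : C *ᵥ (C *ᵥ (C *ᵥ v)) = 0 := by
      rw [mulVec_mulVec, mulVec_mulVec, h3, zero_mulVec]
    rw [← mulVec_mulVec] at hv
    have hli : LinearIndependent F ![v, C *ᵥ v, C *ᵥ (C *ᵥ v)] := by
      rw [Fintype.linearIndependent_iff]
      intro g hg
      simp only [Fin.sum_univ_three, Matrix.cons_val_zero, Matrix.cons_val_one, Matrix.cons_val_two,
        Matrix.head_cons, Matrix.tail_cons] at hg
      have h0 := congrArg (fun e => C *ᵥ (C *ᵥ e)) hg
      simp only [mulVec_add, mulVec_smul, hC3, mulVec_zero, smul_zero, add_zero,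
        smul_eq_zero, hv, or_false] at h0
      rw [h0, zero_smul, zero_add] at hg
      have h1 := congrArg (fun e => C *ᵥ e) hg
      simp only [mulVec_add, mulVec_smul, hC3, mulVec_zero, smul_zero, add_zero,
        smul_eq_zero, hv, or_false] at h1
      rw [h1, zero_smul, zero_add, smul_eq_zero] at hg
      intro i
      fin_cases i
      exacts [h0, h1, hg.resolve_right hv]
    exact ⟨basisOfLinearIndependentOfCardEqFinrank hli (by simp),
      by simp, by simp, by simp [← mul_assoc, h3]⟩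
  obtain ⟨a, ha0, ha1, ha2⟩ := key A hA hA2
  obtain ⟨b, hb0, hb1, hb2⟩ := key B hB hB2
  refine H66.isConj_of_equiv (a.equiv b (Equiv.refl _)) fun v => ?_
  have h : (a.equiv b (Equiv.refl _)).toLinearMap.comp (toLin' A) =
      (toLin' B).comp (a.equiv b (Equiv.refl _)).toLinearMap := a.ext fun i => by
    fin_cases i <;>
      simp [toLin'_apply, ha0, ha1, ha2, hb0, hb1, hb2, Module.Basis.equiv_apply]
  exact LinearMap.congr_fun h v

variable [Fintype F] {q : ℕ}

/-- A Frobenius power of a root is a root. -/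
theorem aeval_pow_card_eq_zero {A : Matrix ι ι F} {f : F[X]} [Nonempty ι] (hA : aeval A f = 0) (j : ℕ) :
    aeval (A ^ Fintype.card F ^ j) f = 0 := by
  obtain ⟨p, hp⟩ := CharP.exists F
  obtain ⟨m, hpp, hm⟩ := FiniteField.card F p
  have : Fact p.Prime := ⟨hpp⟩
  have : CharP (Matrix ι ι F) p := inferInstance
  have h := aeval_pow_frob p ((m : ℕ) * j) (RingHom.id F)
    (fun a => by rw [pow_mul, ← hm, RingHom.id_apply, FiniteField.pow_card_pow]) A f
  rw [hA, zero_pow (pow_ne_zero _ hpp.ne_zero), Polynomial.map_id, pow_mul, ← hm] at h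
  exact h.symm

/-- The standing data of the torus normaliser covering. -/
structure TorusData (F : Type*) [Field F] [Fintype F] (q : ℕ) where
  t : SU 3 F q
  irr : Irreducible (act t).charpoly
  ord : t ^ (q ^ 3 + 1) = 1

/-- An element of `GU` conjugating unitary matrices can be corrected into `SU` by the centraliser. -/
theorem exists_su_semiconj (hF : Fintype.card F = q ^ 2) [CharP F 3] (T : TorusData F q)
    (y : GU 3 F q) {A : Matrix (Fin 3) (Fin 3) F}
    (hy : (y.1 : Matrix (Fin 3) (Fin 3) F) * A = act T.t * (y.1 : Matrix (Fin 3) (Fin 3) F)) :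
    ∃ x : SU 3 F q, act x * A = act T.t * act x := by
  have : Fact (Nat.Prime 3) := ⟨Nat.prime_three⟩
  set τ := H3.suToGU 3 F q T.t with hτ
  have hord : (orderOf τ).Coprime 3 := by
    have h1 : orderOf τ ∣ q ^ 3 + 1 := orderOf_dvd_of_pow_eq_one (by rw [hτ, ← map_pow, T.ord, map_one])
    refine Nat.Coprime.coprime_dvd_left h1 ?_
    obtain ⟨p, k, hp, hc, hk, rfl⟩ := H3.exists_q_eq_pow hF
    obtain rfl : p = 3 := (CharP.eq F hc ‹CharP F 3›)
    rw [Nat.coprime_comm, Nat.prime_three.coprime_iff_not_dvd]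
    intro h
    have h3 : 3 ∣ (3 ^ k) ^ 3 := dvd_pow (dvd_pow_self 3 (by omega)) (by norm_num)
    have := (Nat.dvd_add_right h3).1 h
    omega
  set δ := H3.guDet 3 F q y with hδ
  have hδn : ((δ⁻¹ : Fˣ) : F) * H3.conjQ hF ((δ⁻¹ : Fˣ) : F) = 1 := by
    rw [H3.conjQ_apply, ← pow_succ', ← Units.val_pow_eq_pow_val, inv_pow]
    have h1 : δ ^ (q + 1) = 1 := Units.ext (by rw [Units.val_pow_eq_pow_val]; exact H3.det_GU hF y)
    rw [h1, inv_one, Units.val_one]
  obtain ⟨z, hz, hzd⟩ := H66.exists_GU_commute_det_eq hF 3 (by norm_num) τ hord hδn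
  have hk : z * y ∈ (H3.guDet 3 F q).ker := by
    rw [MonoidHom.mem_ker, map_mul, show H3.guDet 3 F q z = δ⁻¹ from Units.ext hzd, inv_mul_cancel]
  refine ⟨(H3.suEquivKer 3 F q).symm ⟨z * y, hk⟩, ?_⟩
  show (z.1 : Matrix (Fin 3) (Fin 3) F) * (y.1 : Matrix (Fin 3) (Fin 3) F) * A =
    act T.t * ((z.1 : Matrix (Fin 3) (Fin 3) F) * (y.1 : Matrix (Fin 3) (Fin 3) F))
  have hz' := congrArg (fun e : GU 3 F q => (e.1 : Matrix (Fin 3) (Fin 3) F)) hz
  simp only [Subgroup.coe_mul, Units.val_mul] at hz'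
  rw [show (τ.1 : Matrix (Fin 3) (Fin 3) F) = act T.t from rfl] at hz'
  rw [mul_assoc, hy, ← mul_assoc, hz', mul_assoc]

/-- Roots of the torus polynomial inside `GU` are moved to `t` by `SU`. -/
theorem exists_su_semiconj_root (hF : Fintype.card F = q ^ 2) [CharP F 3] (T : TorusData F q)
    (h : GU 3 F q) (hh : aeval (h.1 : Matrix (Fin 3) (Fin 3) F) (act T.t).charpoly = 0) :
    ∃ x : SU 3 F q, act x * (h.1 : Matrix (Fin 3) (Fin 3) F) = act T.t * act x := by
  have h1 : IsConj (h : GL (Fin 3) F) ((H3.suToGU 3 F q T.t : GU 3 F q) : GL (Fin 3) F) :=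
    H66.gl_isConj_iff.2 (isConj_of_aeval_eq_zero T.irr hh (Matrix.aeval_self_charpoly _))
  obtain ⟨y, hy⟩ := H66.gu_isConj_of_isConj hF h _ h1
  refine exists_su_semiconj hF T (y : GU 3 F q) ?_
  exact congrArg (fun e : GU 3 F q => (e.1 : Matrix (Fin 3) (Fin 3) F)) hy.eq

/-- Torus data exist. -/
theorem exists_torusData (hF : Fintype.card F = q ^ 2) [CharP F 3] : Nonempty (TorusData F q) := by
  have : Fact (Nat.Prime 3) := ⟨Nat.prime_three⟩
  have hq2 := H3.two_le_q hF
  set E := FiniteField.Extension F 3 3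
  have := Fintype.ofFinite E
  have hcE : Fintype.card E = (q ^ 3) ^ 2 := by
    rw [Module.card_eq_pow_finrank (K := F), FiniteField.finrank_extension, hF]; ring
  obtain ⟨γ, hγ⟩ := IsCyclic.exists_ofOrder_eq_natCard (α := Eˣ)
  rw [Nat.card_units, Nat.card_eq_fintype_card, hcE] at hγ
  have hq3 : 2 ≤ q ^ 3 := hq2.trans (Nat.le_self_pow (by norm_num) q)
  set ζ : E := ((γ ^ (q ^ 3 - 1) : Eˣ) : E) with hζ
  have hmul : (q ^ 3 - 1) * (q ^ 3 + 1) = (q ^ 3) ^ 2 - 1 := by
    have := (Nat.sq_sub_sq (q ^ 3) 1).symm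
    rwa [one_pow, mul_comm] at this
  have hpow : ζ ^ (q ^ 3 + 1) = 1 := by
    rw [hζ, ← Units.val_pow_eq_pow_val, ← pow_mul, hmul, ← hγ, pow_orderOf_eq_one, Units.val_one]
  have hnotF : ∀ a : F, algebraMap F E a ≠ ζ := by
    intro a ha
    have ha0 : a ≠ 0 := fun h => by
      rw [h, map_zero, hζ] at ha
      exact (Units.ne_zero _) ha.symm
    have h1 : ζ ^ (q ^ 2 - 1) = 1 := by
      rw [← ha, ← map_pow, ← hF, FiniteField.pow_card_sub_one_eq_one a ha0, map_one]
    rw [hζ, ← Units.val_pow_eq_pow_val, Units.val_eq_one, ← pow_mul] at h1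
    have h2 := orderOf_dvd_of_pow_eq_one h1
    rw [hγ, ← hmul, Nat.mul_dvd_mul_iff_left (by omega)] at h2
    have h3 := Nat.le_of_dvd (by have : 4 ≤ q ^ 2 := by nlinarith
                                 omega) h2
    have h4 : q ^ 2 ≤ q ^ 3 := Nat.pow_le_pow_right (by omega) (by norm_num)
    omega
  have hint : IsIntegral F ζ := IsIntegral.of_finite F ζ
  set f := minpoly F ζ with hf
  have hfi : Irreducible f := minpoly.irreducible hint
  have hfm : f.Monic := minpoly.monic hint
  have hfd : f.natDegree = 3 := by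
    have h1 := minpoly.degree_dvd (K := F) (L := E) hint
    rw [FiniteField.finrank_extension] at h1
    rcases (Nat.dvd_prime Nat.prime_three).1 h1 with h | h
    · obtain ⟨a, ha⟩ := minpoly.mem_range_of_degree_eq_one F ζ (by
        rw [degree_eq_natDegree hfi.ne_zero, h]; rfl)
      exact absurd ha (hnotF a)
    · exact h
  have hζ0 : ζ ≠ 0 := Units.ne_zero _
  have hf0 : f.coeff 0 ≠ 0 := minpoly.coeff_zero_ne_zero hint hζ0
  obtain ⟨p, k, hp, hc, hk, hq⟩ := H3.exists_q_eq_pow hF
  obtain rfl : p = 3 := CharP.eq F hc ‹CharP F 3›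
  have : CharP E 3 := charP_of_injective_algebraMap (algebraMap F E).injective 3
  have hdual : H67.dualPoly (H3.conjQ hF) f = f := by
    symm
    refine eq_of_monic_of_associated hfm (H67.dualPoly_monic hf0) (hfi.associated_of_dvd
      (H67.dualPoly_irreducible (H3.conjQ_conjQ hF) hfm hf0 hfi) (minpoly.dvd F ζ ?_))
    have h2 : (aeval ζ) ((f.map (H3.conjQ hF)).reverse) = 0 := by
      let := invertibleOfNonzero (inv_ne_zero hζ0)
      have h3 := aeval_pow_frob 3 (3 * k) (H3.conjQ hF) (fun a => by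
        rw [H3.conjQ_apply, pow_mul', ← hq]
        calc a ^ q = ((a ^ q) ^ q) ^ q := by rw [H3.pow_q_pow_q hF]
          _ = a ^ q ^ 3 := by rw [← pow_mul, ← pow_mul]; ring_nf) ζ f
      rw [minpoly.aeval, zero_pow (pow_ne_zero _ (by norm_num)), pow_mul', ← hq,
        eq_inv_of_mul_eq_one_left (a := ζ ^ q ^ 3) (b := ζ) (by rw [← pow_succ, hpow])] at h3
      rw [aeval_def]
      have h4 := (eval₂_reverse_eq_zero_iff (algebraMap F E) ζ⁻¹ (f.map (H3.conjQ hF))).2
        (by rw [← aeval_def]; exact h3.symm)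
      rwa [invOf_eq_inv, inv_inv] at h4
    rw [H67.dualPoly, map_mul, h2, mul_zero]
  obtain ⟨g, hgf, -⟩ := H66.exists_GU_model hF hfm hfd hf0 hdual
  obtain ⟨c, hc3⟩ := (frobeniusEquiv F 3).surjective ((H3.guDet 3 F q g)⁻¹ : Fˣ)
  rw [frobeniusEquiv_apply, frobenius_def] at hc3
  have hc0 : c ≠ 0 := fun h => by
    rw [h, zero_pow (by norm_num)] at hc3
    exact Units.ne_zero _ hc3.symm
  have hcn : c ^ (q + 1) = 1 := by
    refine (frobenius_inj F 3) ?_
    rw [frobenius_def, frobenius_def, ← pow_mul, mul_comm, pow_mul, hc3, one_pow,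
      ← Units.val_pow_eq_pow_val, inv_pow, show (H3.guDet 3 F q g) ^ (q + 1) = 1 from
        Units.ext (by rw [Units.val_pow_eq_pow_val]; exact H3.det_GU hF g), inv_one, Units.val_one]
  set u : GU 3 F q := H3.guDiag (fun _ => c) (fun _ => hcn) * g with hu
  have hudet : u ∈ (H3.guDet 3 F q).ker := by
    rw [MonoidHom.mem_ker]
    ext
    simp [hu, H3.guDiag, hc3, Matrix.GeneralLinearGroup.det_ne_zero (g : GL (Fin 3) F)]
  set t : SU 3 F q := (H3.suEquivKer 3 F q).symm ⟨u, hudet⟩
  have hact : act t = c • (g.1 : Matrix (Fin 3) (Fin 3) F) := by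
    show diagonal (fun _ => c) * (g.1 : Matrix (Fin 3) (Fin 3) F) = _
    ext i j
    simp [Matrix.diagonal_mul]
  have hroot : ∀ r, ¬ (act t).charpoly.IsRoot r := by
    intro r hr
    obtain ⟨v, hv, hgv⟩ := exists_eigvec _ hr
    rw [hact, smul_mulVec] at hgv
    have h1 : (g.1 : Matrix (Fin 3) (Fin 3) F) *ᵥ v = (c⁻¹ * r) • v := by
      rw [← smul_smul, ← hgv, smul_smul, inv_mul_cancel₀ hc0, one_smul]
    have h2 : f.IsRoot (c⁻¹ * r) := by
      rw [← hgf, IsRoot, Matrix.eval_charpoly, ← Matrix.exists_mulVec_eq_zero_iff]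
      refine ⟨v, hv, ?_⟩
      rw [Matrix.sub_mulVec, h1, sub_eq_zero]
      ext i
      simp [Matrix.mulVec_diagonal]
    have := Polynomial.degree_eq_one_of_irreducible_of_root hfi h2
    rw [degree_eq_natDegree hfi.ne_zero, hfd] at this
    norm_cast at this
  have htd : (act t).charpoly.natDegree = 3 := by rw [Matrix.charpoly_natDegree_eq_dim, Fintype.card_fin]
  have hti : Irreducible (act t).charpoly :=
    ((Matrix.charpoly_monic _).irreducible_iff_roots_eq_zero_of_degree_le_three (by omega) (by omega)).2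
      (Multiset.eq_zero_of_forall_notMem fun r hr => hroot r (isRoot_of_mem_roots hr))
  refine ⟨⟨t, hti, H3.SU_ext ?_⟩⟩
  have : Fact (Irreducible (act t).charpoly) := ⟨hti⟩
  have h1 := root_pow_of_selfDual_cubic hF (Matrix.charpoly_monic (act t))
    (fun h => hroot 0 (by rw [IsRoot, ← coeff_zero_eq_eval_zero, h]))
    (H66.dualPoly_charpoly_of_mem_GU hF (g := Matrix.SpecialLinearGroup.toGL t.1) t.2) htd
  rw [← AdjoinRoot.mk_X, ← map_pow, ← map_one (AdjoinRoot.mk (act t).charpoly)] at h1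
  have h2 := aeval_eq_of_mk_eq (Matrix.aeval_self_charpoly (act t)) h1
  rw [map_pow, aeval_X, map_one] at h2
  show act (t ^ (q ^ 3 + 1)) = 1
  rw [← h2]
  exact map_pow ((Matrix.SpecialLinearGroup.toGL.comp (SU 3 F q).subtype)) t _ |> congrArg Units.val |>.trans
    (Units.val_pow_eq_pow_val _ _)

/-- An element of order three normalising the torus and not killed by a quadratic. -/
theorem exists_s0 (hF : Fintype.card F = q ^ 2) [CharP F 3] (T : TorusData F q) :
    ∃ s : SU 3 F q, s ∈ Subgroup.normalizer (Subgroup.centralizer {T.t} : Set (SU 3 F q)) ∧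
      (act s - 1) * (act s - 1) * (act s - 1) = 0 ∧ (act s - 1) * (act s - 1) ≠ 0 := by
  have : Fact (Nat.Prime 3) := ⟨Nat.prime_three⟩
  have hq2 := H3.two_le_q hF
  set f := (act T.t).charpoly with hf
  have hfd : f.natDegree = 3 := by rw [hf, Matrix.charpoly_natDegree_eq_dim, Fintype.card_fin]
  have hft : aeval (act T.t) f = 0 := Matrix.aeval_self_charpoly _
  have : Fact (Irreducible f) := ⟨T.irr⟩
  have hactp : ∀ (x : SU 3 F q) (i : ℕ), act (x ^ i) = act x ^ i := fun x i =>
    congrArg Units.val (map_pow ((Matrix.SpecialLinearGroup.toGL.comp (SU 3 F q).subtype)) x i) |>.trans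
      (Units.val_pow_eq_pow_val _ _)
  set Q := Fintype.card F with hQ
  have hQ0 : 0 < Q := Fintype.card_pos
  -- an element raising `t` to the power `Q`
  obtain ⟨x, hx⟩ := exists_su_semiconj_root hF T (H3.suToGU 3 F q (T.t ^ Q)) (by
    show aeval (act (T.t ^ Q)) f = 0
    have := aeval_pow_card_eq_zero hft 1
    rwa [pow_one, ← hQ, ← hactp] at this)
  have hxt : x⁻¹ * T.t * x = T.t ^ Q := by
    rw [mul_assoc, inv_mul_eq_iff_eq_mul]
    refine H3.SU_ext ?_
    show act (T.t * x) = act (x * T.t ^ Q)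
    rw [act_mul, act_mul]
    exact hx.symm
  have hpw : ∀ j, (x ^ j)⁻¹ * T.t * x ^ j = T.t ^ Q ^ j := by
    intro j
    induction j with
    | zero => simp
    | succ j ih =>
      rw [pow_succ, _root_.mul_inv_rev, show x⁻¹ * (x ^ j)⁻¹ * T.t * (x ^ j * x) = x⁻¹ * ((x ^ j)⁻¹ * T.t * x ^ j) * x by group,
        ih, pow_succ' Q, pow_mul, ← hxt]
      simpa using (conj_pow (a := x⁻¹) (b := T.t) (i := Q ^ j)).symm
  -- the three-part
  obtain ⟨e, m, hm, hem⟩ := Nat.exists_eq_pow_mul_and_not_dvd (orderOf_pos x).ne' 3 (by norm_num)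
  set s := x ^ m with hs
  have hs3 : s ^ 3 ^ e = 1 := by rw [hs, ← pow_mul, mul_comm, ← hem, pow_orderOf_eq_one]
  have hN3 : (act s - 1) * (act s - 1) * (act s - 1) = 0 := by
    have h1 : (act s - 1) ^ 3 ^ e = 0 := by
      rw [sub_pow_char_pow_of_commute 3 e (Commute.one_right _), one_pow, ← hactp, hs3, act_one, sub_self]
    obtain ⟨i, hi, hass⟩ := (dvd_prime_pow Polynomial.prime_X _).1
      (show minpoly F (act s - 1) ∣ X ^ 3 ^ e from minpoly.dvd F _ (by rw [map_pow, aeval_X, h1]))
    have heq := eq_of_monic_of_associated (minpoly.monic (Matrix.isIntegral _)) (monic_X_pow i) hass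
    have hle := natDegree_le_of_dvd (Matrix.minpoly_dvd_charpoly (act s - 1)) (Matrix.charpoly_monic _).ne_zero
    rw [heq, natDegree_X_pow, Matrix.charpoly_natDegree_eq_dim, Fintype.card_fin] at hle
    have h2 := minpoly.aeval F (act s - 1)
    rw [heq, map_pow, aeval_X] at h2
    rw [← pow_two, ← pow_succ, show 2 + 1 = i + (3 - i) by omega, pow_add, h2, zero_mul]
  refine ⟨s, ?_, hN3, ?_⟩
  · rw [Subgroup.mem_normalizer_iff]
    have hiff : ∀ (a h : SU 3 F q), h ∈ Subgroup.centralizer {a} ↔ Commute h a := fun a h =>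
      Subgroup.mem_centralizer_singleton_iff
    intro h
    rw [hiff, hiff]
    -- `t ^ Q ^ m` and `t` have the same centraliser
    have hcyc : ∀ j, T.t ^ Q ^ (3 * j) = T.t := by
      intro j
      refine H3.SU_ext ?_
      show act (T.t ^ Q ^ (3 * j)) = act T.t
      rw [hactp]
      have h1 : AdjoinRoot.mk f (X ^ Q ^ (3 * j)) = AdjoinRoot.mk f X := by
        have : Module.Finite F (AdjoinRoot f) := (AdjoinRoot.powerBasis T.irr.ne_zero).finite
        have : Finite (AdjoinRoot f) := Module.finite_of_finite F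
        have := Fintype.ofFinite (AdjoinRoot f)
        have h6 := FiniteField.pow_card_pow j (AdjoinRoot.mk f X)
        rwa [Module.card_eq_pow_finrank (K := F), (AdjoinRoot.powerBasis T.irr.ne_zero).finrank,
          AdjoinRoot.powerBasis_dim, hfd, ← pow_mul, ← map_pow] at h6
      simpa using aeval_eq_of_mk_eq hft h1
    have hcent : ∀ a : SU 3 F q, Commute a (T.t ^ Q ^ m) ↔ Commute a T.t := fun a => by
      refine ⟨fun ha => ?_, fun ha => ha.pow_right _⟩
      rw [← hcyc m, show 3 * m = m + 2 * m by ring, pow_add, pow_mul]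
      exact ha.pow_right _
    rw [show Commute h T.t ↔ Commute h (T.t ^ Q ^ m) from (hcent h).symm, ← hpw m, hs,
      ← Commute.conj_iff (x ^ m),
      show x ^ m * ((x ^ m)⁻¹ * T.t * x ^ m) * (x ^ m)⁻¹ = T.t by group]
  · intro hN2
    set N := act s - 1 with hN
    have hker : 2 ≤ Module.finrank F (LinearMap.ker (toLin' N)) := by
      have h1 := (toLin' N).finrank_range_add_finrank_ker
      have h2 : LinearMap.range (toLin' N) ≤ LinearMap.ker (toLin' N) := by
        rintro _ ⟨y, rfl⟩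
        rw [LinearMap.mem_ker, toLin'_apply, toLin'_apply, mulVec_mulVec, hN2, zero_mulVec]
      have h3 := Submodule.finrank_mono h2
      rw [Module.finrank_fintype_fun_eq_card, Fintype.card_fin] at h1
      omega
    obtain ⟨v, hv, hv0⟩ := Submodule.exists_mem_ne_zero_of_ne_bot (p := LinearMap.ker (toLin' N)) fun h => by
      rw [h, finrank_bot] at hker; omega
    obtain ⟨w, hw, hwv⟩ := SetLike.not_le_iff_exists.1
      (fun h : LinearMap.ker (toLin' N) ≤ Submodule.span F {v} => by
        have := Submodule.finrank_mono h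
        rw [finrank_span_singleton hv0] at this
        omega)
    have hfix : ∀ {y}, y ∈ LinearMap.ker (toLin' N) → act s *ᵥ y = y := fun {y} hy => by
      rw [LinearMap.mem_ker, toLin'_apply, hN, sub_mulVec, one_mulVec, sub_eq_zero] at hy
      exact hy
    obtain ⟨P, hP⟩ := exists_aeval_mulVec_eq T.irr (by rw [← hf, hfd, Fintype.card_fin]) hft hv0 w
    -- `s` acts on `F[t]` by a power of Frobenius
    have hst : ∀ P : F[X], act s * aeval (act T.t ^ Q ^ m) P = aeval (act T.t) P * act s := by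
      intro P
      have h1 : act s * (act T.t ^ Q ^ m) = act T.t * act s := by
        rw [← hactp, ← act_mul, ← act_mul, hs, ← hpw m]
        congr 1
        group
      clear hP
      induction P using Polynomial.induction_on' with
      | add a b ha hb => rw [map_add, map_add, mul_add, add_mul, ha, hb]
      | monomial i a =>
        rw [aeval_monomial, aeval_monomial, ← mul_assoc, ← (Algebra.commutes a (act s)), mul_assoc,
          ((show SemiconjBy (act s) (act T.t ^ Q ^ m) (act T.t) from h1).pow_right i).eq, mul_assoc]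
    have hpw' : aeval (act T.t ^ Q ^ m) P *ᵥ v = w := by
      have h1 := congrArg (· *ᵥ v) (hst P)
      simp only [← mulVec_mulVec, hfix hv, hP] at h1
      have h2 := congrArg (act s⁻¹ *ᵥ ·) h1
      conv_rhs at h2 => rw [← hfix hw]
      simpa only [mulVec_mulVec, ← mul_assoc, act_inv_mul, one_mul, one_mulVec] using h2
    have hdvd : f ∣ P.comp (X ^ Q ^ m) - P := dvd_of_aeval_mulVec_eq_zero T.irr hft hv0 (by
      rw [map_sub, aeval_comp, map_pow, aeval_X, sub_mulVec, hpw', hP, sub_self])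
    -- so `P` is constant modulo `f`
    set r := AdjoinRoot.mk f P with hr
    have : Module.Finite F (AdjoinRoot f) := (AdjoinRoot.powerBasis T.irr.ne_zero).finite
    have : Finite (AdjoinRoot f) := Module.finite_of_finite F
    have hr1 : ((FiniteField.frobeniusAlgEquivOfAlgebraic F (AdjoinRoot f)) ^ m) r = r := by
      rw [hr, ← AdjoinRoot.aeval_eq]
      show ((FiniteField.frobeniusAlgEquivOfAlgebraic F (AdjoinRoot f)) ^ m : AdjoinRoot f ≃ₐ[F] AdjoinRoot f).toAlgHom _ = _
      rw [← aeval_algHom_apply]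
      show aeval (((FiniteField.frobeniusAlgEquivOfAlgebraic F (AdjoinRoot f)) ^ m) (AdjoinRoot.root f)) P = _
      rw [AlgEquiv.coe_pow, FiniteField.coe_frobeniusAlgEquivOfAlgebraic, pow_iterate]
      show aeval (AdjoinRoot.root f ^ Q ^ m) P = _
      rw [AdjoinRoot.aeval_eq P, ← AdjoinRoot.mk_X, ← map_pow, ← sub_eq_zero]
      rw [show aeval (AdjoinRoot.mk f (X ^ Q ^ m)) P = AdjoinRoot.mk f (P.comp (X ^ Q ^ m)) by
        rw [← AdjoinRoot.aeval_eq, ← AdjoinRoot.aeval_eq, aeval_comp], ← map_sub, AdjoinRoot.mk_eq_zero]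
      exact hdvd
    set φ := FiniteField.frobeniusAlgEquivOfAlgebraic F (AdjoinRoot f) with hφ
    have hr3 : ∀ j, (φ ^ (3 * j)) r = r := fun j => by
      have : φ ^ 3 = 1 := by
        rw [hφ, ← hfd, ← AdjoinRoot.powerBasis_dim T.irr.ne_zero, ← (AdjoinRoot.powerBasis T.irr.ne_zero).finrank,
          ← FiniteField.orderOf_frobeniusAlgEquivOfAlgebraic F (AdjoinRoot f), pow_orderOf_eq_one]
      rw [pow_mul, this, one_pow]; rfl
    have hr' : φ r = r := by
      have hiter : ∀ j, (φ ^ (m * j)) r = r := fun j => by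
        rw [pow_mul]
        induction j with
        | zero => rfl
        | succ j ih => rw [pow_succ, AlgEquiv.mul_apply, hr1, ih]
      rcases (show m % 3 = 1 ∨ m % 3 = 2 by omega) with h | h
      · have := hr3 (m / 3)
        have h2 := hr1
        rw [show m = 1 + 3 * (m / 3) by omega, pow_add, AlgEquiv.mul_apply, this, pow_one] at h2
        exact h2
      · have := hr3 ((m * 2) / 3)
        have h2 := hiter 2
        rw [show m * 2 = 1 + 3 * (m * 2 / 3) by omega, pow_add, AlgEquiv.mul_apply, this, pow_one] at h2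
        exact h2
    obtain ⟨c, hc⟩ := IntermediateField.mem_bot.1 ((IsGalois.mem_bot_iff_fixed r).2 fun g => by
      obtain ⟨i, rfl⟩ := (FiniteField.bijective_frobeniusAlgEquivOfAlgebraic_pow F (AdjoinRoot f)).2 g
      show (φ ^ (i : ℕ)) r = r
      generalize (i : ℕ) = k
      induction k with
      | zero => rfl
      | succ k ih => rw [pow_succ, AlgEquiv.mul_apply, hr', ih])
    refine hwv (Submodule.mem_span_singleton.2 ⟨c, ?_⟩)
    rw [← hP, aeval_eq_of_mk_eq hft (show AdjoinRoot.mk f P = AdjoinRoot.mk f (C c) by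
      rw [AdjoinRoot.mk_C, ← hr, ← hc]; rfl), aeval_C, Algebra.algebraMap_eq_smul_one, smul_mulVec,
      one_mulVec]

/-- The torus normaliser is proper. -/
theorem torusNormalizer_ne_top (hF : Fintype.card F = q ^ 2) (T : TorusData F q) :
    Subgroup.normalizer (Subgroup.centralizer {T.t} : Set (SU 3 F q)) ≠ ⊤ := by
  intro htop
  set A := act T.t with hA
  have hscal : ∃ l : F, ∀ x, A *ᵥ x = l • x := by
    refine H3.scalar_of_commute_transvections hF (by norm_num) A fun p c hp hc => ?_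
    set x := H3.suTrans hF p c hp hc with hx
    have hmem : x * T.t * x⁻¹ ∈ Subgroup.centralizer {T.t} :=
      (Subgroup.mem_normalizer_iff.1 (htop ▸ Subgroup.mem_top x) T.t).1
        (Subgroup.mem_centralizer_singleton_iff.2 rfl)
    have hE : Commute A (act (x * T.t * x⁻¹) - A) := by
      refine Commute.sub_right ?_ (Commute.refl _)
      show act T.t * act (x * T.t * x⁻¹) = act (x * T.t * x⁻¹) * act T.t
      rw [← act_mul, ← act_mul, Subgroup.mem_centralizer_singleton_iff.1 hmem]
    -- a vector on which `x` and `t` commute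
    let f : (Fin 3 → F) →ₗ[F] F × F := (H3.hermB hF 3 p).prod ((H3.hermB hF 3 p).comp (toLin' A))
    have hk : LinearMap.ker f ≠ ⊥ := fun h => by
      have h1 := f.finrank_range_add_finrank_ker
      have h2 := Submodule.finrank_le (LinearMap.range f)
      rw [h, finrank_bot, Module.finrank_fintype_fun_eq_card, Fintype.card_fin] at h1
      rw [Module.finrank_prod, Module.finrank_self] at h2
      omega
    obtain ⟨y, hy, hy0⟩ := Submodule.exists_mem_ne_zero_of_ne_bot hk
    have hy' : hermForm 3 F q y p = 0 ∧ hermForm 3 F q (A *ᵥ y) p = 0 := by simpa [f] using hy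
    have hxy : act x *ᵥ y = y := by
      show ((H3.suTrans hF p c hp hc).1 : Matrix (Fin 3) (Fin 3) F) *ᵥ y = y
      rw [H3.suTrans, H3.unitaryTransvection_mulVec, hy'.1, mul_zero, zero_smul, add_zero]
    have hxAy : act x *ᵥ (A *ᵥ y) = A *ᵥ y := by
      show ((H3.suTrans hF p c hp hc).1 : Matrix (Fin 3) (Fin 3) F) *ᵥ _ = _
      rw [H3.suTrans, H3.unitaryTransvection_mulVec, hy'.2, mul_zero, zero_smul, add_zero]
    have hxi : act x⁻¹ *ᵥ y = y := by
      conv_lhs => rw [← hxy]
      rw [mulVec_mulVec, act_inv_mul, one_mulVec]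
    have hEy : (act (x * T.t * x⁻¹) - A) *ᵥ y = 0 := by
      rw [sub_mulVec, act_mul, act_mul, ← mulVec_mulVec, hxi, ← mulVec_mulVec, ← hA, hxAy, sub_self]
    have hE0 : act (x * T.t * x⁻¹) - A = 0 := Matrix.ext_of_mulVec_single fun i => by
      obtain ⟨P, hP⟩ := exists_aeval_mulVec_eq T.irr (by
        rw [Matrix.charpoly_natDegree_eq_dim]) (Matrix.aeval_self_charpoly A) hy0 (Pi.single i 1)
      rw [zero_mulVec, ← hP, mulVec_mulVec, ← (commute_aeval hE P).eq, ← mulVec_mulVec, hEy, mulVec_zero]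
    rw [sub_eq_zero, hA] at hE0
    have h := H3.SU_ext (g := x * T.t * x⁻¹) (g' := T.t) hE0
    rw [mul_inv_eq_iff_eq_mul] at h
    show act T.t * act x = act x * act T.t
    rw [← act_mul, ← act_mul, h]
  obtain ⟨l, hl⟩ := hscal
  have hroot : (act T.t).charpoly.IsRoot l := by
    rw [IsRoot, Matrix.eval_charpoly, ← Matrix.exists_mulVec_eq_zero_iff]
    refine ⟨Pi.single 0 1, by simp, ?_⟩
    rw [Matrix.sub_mulVec, ← hA, hl, sub_eq_zero]
    ext i
    simp [Matrix.mulVec_diagonal]
  have := Polynomial.degree_eq_one_of_irreducible_of_root T.irr hroot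
  rw [degree_eq_natDegree T.irr.ne_zero, Matrix.charpoly_natDegree_eq_dim, Fintype.card_fin] at this
  norm_cast at this

omit [Fintype F] in
/-- The adjoint of a polynomial in a matrix. -/
theorem sigAdj_aeval {n : ℕ} (σ : F →+* F) (M : Matrix (Fin n) (Fin n) F) (P : F[X]) :
    H66.sigAdj σ (aeval M P) = aeval (H66.sigAdj σ M) (P.map σ) := by
  induction P using Polynomial.induction_on' with
  | add a b ha hb =>
    rw [map_add, Polynomial.map_add, map_add, ← ha, ← hb]
    simp only [H66.sigAdj, Matrix.map_add σ (map_add σ), transpose_add]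
  | monomial i a =>
    rw [map_monomial, aeval_monomial, aeval_monomial, ← Algebra.smul_def, ← Algebra.smul_def]
    simp only [H66.sigAdj, Matrix.map_smul' (f := σ) a _ (map_mul σ), Matrix.transpose_smul,
      ← RingHom.mapMatrix_apply, map_pow, Matrix.transpose_pow]

/-- Elements of `SU_3` fix a non-isotropic point unless rootless or regular unipotent. -/
theorem su_three_root (hF : Fintype.card F = q ^ 2) [CharP F 3] (g : SU 3 F q) {l : F}
    (hl : (act g).charpoly.IsRoot l) :
    (∃ (v : Fin 3 → F) (c : F), hermForm 3 F q v v ≠ 0 ∧ act g *ᵥ v = c • v) ∨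
      ((act g - 1) * (act g - 1) * (act g - 1) = 0 ∧ (act g - 1) * (act g - 1) ≠ 0) := by
  classical
  have : Fact (Nat.Prime 3) := ⟨Nat.prime_three⟩
  have hq : q ≠ 0 := by have := H3.two_le_q hF; omega
  set M := act g with hM
  obtain ⟨v, hv, hgv⟩ := exists_eigvec M hl
  by_cases hvv : hermForm 3 F q v v = 0
  swap
  · exact Or.inl ⟨v, l, hvv, hgv⟩
  have hl0 : l ≠ 0 := eigen_ne_zero hv hgv
  obtain ⟨u, huv⟩ := H3.exists_hermForm_eq_one hF hv
  have hvu : hermForm 3 F q v u = 1 := by rw [← H3.hermForm_pow_q hF, huv, one_pow]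
  let f : (Fin 3 → F) →ₗ[F] F × F := (H3.hermB hF 3 v).prod (H3.hermB hF 3 u)
  have hsurj : LinearMap.range f = ⊤ := by
    rw [eq_top_iff]
    rintro ⟨a, b⟩ -
    refine ⟨a • u + (b - a * hermForm 3 F q u u) • v, ?_⟩
    simp [f, huv, hvu, hvv, H3.hermForm_add_left hF, H3.hermForm_smul_left hF]
  have hker : Module.finrank F (LinearMap.ker f) = 1 := by
    have := f.finrank_range_add_finrank_ker
    rw [hsurj, finrank_top, Module.finrank_prod, Module.finrank_self, Module.finrank_fintype_fun_eq_card,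
      Fintype.card_fin] at this
    omega
  obtain ⟨w, hwQ, hw0⟩ := Submodule.exists_mem_ne_zero_of_ne_bot (p := LinearMap.ker f) fun h => by
    rw [h, finrank_bot] at hker; exact zero_ne_one hker
  have hws : Submodule.span F {w} = LinearMap.ker f :=
    Submodule.eq_of_le_of_finrank_eq ((Submodule.span_singleton_le_iff_mem _ _).2 hwQ)
      (by rw [hker, finrank_span_singleton hw0])
  have hw : hermForm 3 F q w v = 0 ∧ hermForm 3 F q w u = 0 := by simpa [f] using hwQ
  have hvw : hermForm 3 F q v w = 0 := (H3.hermForm_eq_zero_comm hF).1 hw.1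
  -- coordinates
  have hcoord : ∀ x, ∃ t c, x = hermForm 3 F q x v • u + t • v + c • w := fun x => by
    set a := hermForm 3 F q x v
    set t := hermForm 3 F q x u - a * hermForm 3 F q u u
    have hx : x - a • u - t • v ∈ LinearMap.ker f := by
      simp [f, H3.hermForm_sub_left hF, H3.hermForm_smul_left hF, huv, hvu, hvv, a, t]
    rw [← hws, Submodule.mem_span_singleton] at hx
    obtain ⟨c, hc⟩ := hx
    exact ⟨t, c, by rw [hc]; abel⟩
  have hww : hermForm 3 F q w w ≠ 0 := by
    intro h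
    refine hw0 (funext fun i => ?_)
    obtain ⟨t, c, hx⟩ := hcoord (Pi.single i 1)
    have h1 := congrArg (fun e => hermForm 3 F q e w) hx
    simp [H3.hermForm_add_left hF, H3.hermForm_smul_left hF, H3.hermForm_single_left, h, hvw,
      (H3.hermForm_eq_zero_comm hF).1 hw.2, hq] at h1
    simpa using h1
  have hpres := fun x y => act_herm g x y
  rw [← hM] at hpres
  have hgw : hermForm 3 F q (M *ᵥ w) v = 0 := by
    have h := hpres w v
    rw [hgv, H3.hermForm_smul_right hF, hw.1, mul_eq_zero] at h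
    exact h.resolve_left (pow_ne_zero q hl0)
  obtain ⟨β, μ, hMw⟩ : ∃ β μ, M *ᵥ w = β • v + μ • w := by
    obtain ⟨t, c, h⟩ := hcoord (M *ᵥ w)
    exact ⟨t, c, by rwa [hgw, zero_smul, zero_add] at h⟩
  by_cases hμ : μ = l
  swap
  · refine Or.inl ⟨w + (β / (μ - l)) • v, μ, ?_, ?_⟩
    · simp [H3.hermForm_add_left hF, H3.hermForm_add_right hF, H3.hermForm_smul_left hF,
        H3.hermForm_smul_right hF, hvv, hw.1, hvw, hww]
    · rw [mulVec_add, mulVec_smul, hgv, hMw, smul_add, smul_smul, smul_smul, add_comm (β • v),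
        add_assoc, ← add_smul]
      congr 2
      field_simp [sub_ne_zero.2 hμ]
      ring
  subst hμ
  have hnorm : μ * μ ^ q = 1 := by
    have h := hpres w w
    rw [hMw] at h
    simp [H3.hermForm_add_left hF, H3.hermForm_add_right hF, H3.hermForm_smul_left hF,
      H3.hermForm_smul_right hF, hvv, hw.1, hvw] at h
    refine mul_right_cancel₀ hww ?_
    linear_combination h
  obtain ⟨δ, γ, hMu⟩ : ∃ δ γ, M *ᵥ u = μ • u + δ • v + γ • w := by
    obtain ⟨t, c, h⟩ := hcoord (M *ᵥ u)
    have h1 := hpres u v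
    rw [hgv, H3.hermForm_smul_right hF, huv] at h1
    have ha : hermForm 3 F q (M *ᵥ u) v = μ := by
      linear_combination μ * h1 - hermForm 3 F q (M *ᵥ u) v * hnorm
    exact ⟨t, c, by rwa [ha] at h⟩
  -- `μ = 1`
  have hN3 : ∀ N : Matrix (Fin 3) (Fin 3) F, N = M - μ • 1 →
      N *ᵥ v = 0 ∧ N *ᵥ w = β • v ∧ N *ᵥ u = δ • v + γ • w ∧ N * N * N = 0 := by
    rintro N rfl
    have e1 : (M - μ • 1) *ᵥ v = 0 := by rw [sub_mulVec, smul_mulVec, one_mulVec, hgv, sub_self]
    have e2 : (M - μ • 1) *ᵥ w = β • v := by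
      rw [sub_mulVec, smul_mulVec, one_mulVec, hMw, add_sub_cancel_right]
    have e3 : (M - μ • 1) *ᵥ u = δ • v + γ • w := by
      rw [sub_mulVec, smul_mulVec, one_mulVec, hMu]; abel
    refine ⟨e1, e2, e3, Matrix.ext_of_mulVec_single fun i => ?_⟩
    obtain ⟨t, c, hx⟩ := hcoord (Pi.single i 1)
    rw [hx, zero_mulVec]
    simp only [← mulVec_mulVec, mulVec_add, mulVec_smul, e1, e2, e3, smul_zero, mulVec_zero, add_zero]
  obtain ⟨e1, e2, e3, e4⟩ := hN3 _ rfl
  have hμ1 : μ = 1 := by
    have h1 : (μ ^ 3) • (1 : Matrix (Fin 3) (Fin 3) F) = M ^ 3 := by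
      have h := sub_pow_char_of_commute 3 (show Commute M (μ • 1) from
        (Commute.one_right M).smul_right μ)
      rw [pow_succ, pow_two, e4, _root_.smul_pow, one_pow] at h
      exact (sub_eq_zero.1 h.symm).symm
    have h2 := congrArg Matrix.det h1
    rw [det_smul, det_one, det_pow, show M.det = 1 from g.1.2, one_pow, mul_one, Fintype.card_fin,
      ← one_pow 3] at h2
    exact frobenius_inj F 3 (frobenius_inj F 3 (by simpa [frobenius_def] using h2))
  subst hμ1
  rw [one_smul] at e1 e2 e3 e4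
  by_cases hN2 : (M - 1) * (M - 1) = 0
  swap
  · exact Or.inr ⟨e4, hN2⟩
  left
  have h1 := congrArg (· *ᵥ u) hN2
  simp only [← mulVec_mulVec, e3, mulVec_add, mulVec_smul, e1, e2, smul_zero, zero_add, zero_mulVec,
    smul_smul, smul_eq_zero, mul_eq_zero] at h1
  have hβ : β = 0 := by
    rcases h1.resolve_right hv with hγ | hβ
    · have h := hpres w u
      rw [hMw, hMu, hγ] at h
      simpa [H3.hermForm_add_left hF, H3.hermForm_add_right hF, H3.hermForm_smul_left hF,
        H3.hermForm_smul_right hF, hvv, hw.1, hw.2, hvu] using h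
    · exact hβ
  exact ⟨w, 1, hww, by rw [hMw, hβ, zero_smul, zero_add]⟩

/-- `PSU_3(q)`, `q` a power of three, is covered by two classes. -/
theorem twoCover_psu_three (hF : Fintype.card F = q ^ 2) [CharP F 3] : TwoCover (Cfsg.PSU 3 F q) := by
  classical
  have : Fact (Nat.Prime 3) := ⟨Nat.prime_three⟩
  obtain ⟨T⟩ := exists_torusData hF
  obtain ⟨s, hsK, hs3, hs2⟩ := exists_s0 hF T
  set C := Subgroup.centralizer {T.t} with hC
  have hCK : C ≤ Subgroup.normalizer (C : Set (SU 3 F q)) := Subgroup.le_normalizer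
  refine twoCover_quotient (Subgroup.center _) (H := suStab q (pointSpan 3 F))
    (K := Subgroup.normalizer (C : Set (SU 3 F q))) (pointStab_ne_top hF (by norm_num))
    (torusNormalizer_ne_top hF T) (center_le_suStab hF (by norm_num) _) ?_ fun g => ?_
  · exact fun z hz => hCK (Subgroup.mem_centralizer_singleton_iff.2 (Subgroup.mem_center_iff.1 hz T.t).symm)
  set M := act g with hM
  by_cases hroot : ∃ r, M.charpoly.IsRoot r
  · obtain ⟨l, hl⟩ := hroot
    rcases su_three_root hF g hl with ⟨v, c, hv, hg⟩ | ⟨h3, h2⟩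
    · obtain ⟨x, hx⟩ := exists_conj_point hF hv hg
      exact ⟨x, Or.inl hx⟩
    -- regular unipotent
    have hconj : IsConj (Matrix.SpecialLinearGroup.toGL g.1) (Matrix.SpecialLinearGroup.toGL s.1) :=
      H66.gl_isConj_iff.2 (by
        obtain ⟨c, hc⟩ := isConj_of_nilpotent_three h3 h2 hs3 hs2
        refine ⟨c, ?_⟩
        have h := (hc.add_right (SemiconjBy.one_right (c : Matrix (Fin 3) (Fin 3) F)))
        rwa [sub_add_cancel, sub_add_cancel] at h)
    obtain ⟨y, hy⟩ := H66.gu_isConj_of_isConj hF (H3.suToGU 3 F q g) (H3.suToGU 3 F q s) hconj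
    set δ := H3.guDet 3 F q (y : GU 3 F q) with hδ
    obtain ⟨c, hc⟩ := (frobeniusEquiv F 3).surjective ((δ⁻¹ : Fˣ) : F)
    rw [frobeniusEquiv_apply, frobenius_def] at hc
    have hcn : c ^ (q + 1) = 1 := by
      refine (frobenius_inj F 3) ?_
      rw [frobenius_def, frobenius_def, ← pow_mul, mul_comm, pow_mul, hc, one_pow,
        ← Units.val_pow_eq_pow_val, inv_pow, show δ ^ (q + 1) = 1 from
          Units.ext (by rw [Units.val_pow_eq_pow_val]; exact H3.det_GU hF _), inv_one, Units.val_one]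
    set z : GU 3 F q := H3.guDiag (fun _ => c) (fun _ => hcn)
    have hk : z * (y : GU 3 F q) ∈ (H3.guDet 3 F q).ker := by
      rw [MonoidHom.mem_ker, map_mul, show H3.guDet 3 F q z = δ⁻¹ from Units.ext (by simp [z, H3.guDiag, hc]),
        inv_mul_cancel]
    refine ⟨(H3.suEquivKer 3 F q).symm ⟨z * y, hk⟩, Or.inr ?_⟩
    convert hsK
    rw [mul_inv_eq_iff_eq_mul]
    refine H3.SU_ext ?_
    rw [H3.SU_mul_val, H3.SU_mul_val]
    show diagonal (fun _ => c) * ((y : GU 3 F q).1 : Matrix (Fin 3) (Fin 3) F) * act g =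
      act s * (diagonal (fun _ => c) * ((y : GU 3 F q).1 : Matrix (Fin 3) (Fin 3) F))
    have hy' : ((y : GU 3 F q).1 : Matrix (Fin 3) (Fin 3) F) * act g =
        act s * ((y : GU 3 F q).1 : Matrix (Fin 3) (Fin 3) F) :=
      congrArg (fun e : GU 3 F q => (e.1 : Matrix (Fin 3) (Fin 3) F)) hy.eq
    rw [mul_assoc, hy', ← mul_assoc, ← mul_assoc]
    congr 1
    exact ((Matrix.scalar_commute c (Commute.all c) (act s)).eq)
  -- irreducible
  push Not at hroot
  have hdeg : M.charpoly.natDegree = 3 := by rw [Matrix.charpoly_natDegree_eq_dim, Fintype.card_fin]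
  have hi : Irreducible M.charpoly :=
    (M.charpoly_monic.irreducible_iff_roots_eq_zero_of_degree_le_three (by omega) (by omega)).2
      (Multiset.eq_zero_of_forall_notMem fun r hr => hroot r (isRoot_of_mem_roots hr))
  have hMp : M ^ (q ^ 3 + 1) = 1 := by
    have : Fact (Irreducible M.charpoly) := ⟨hi⟩
    have h1 := root_pow_of_selfDual_cubic hF M.charpoly_monic
      (fun h => hroot 0 (by rw [IsRoot, ← coeff_zero_eq_eval_zero, h]))
      (H66.dualPoly_charpoly_of_mem_GU hF (g := Matrix.SpecialLinearGroup.toGL g.1) g.2) hdeg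
    rw [← AdjoinRoot.mk_X, ← map_pow, ← map_one (AdjoinRoot.mk M.charpoly)] at h1
    have h2 := aeval_eq_of_mk_eq (Matrix.aeval_self_charpoly M) h1
    rwa [map_pow, aeval_X, map_one] at h2
  set f := (act T.t).charpoly with hf
  have hfd : f.natDegree = 3 := by rw [hf, Matrix.charpoly_natDegree_eq_dim, Fintype.card_fin]
  obtain ⟨P, hP⟩ := exists_aeval_root M (f := f) T.irr fun p hpm hpi hpd => by
    rw [hfd, ← hdeg, eq_of_monic_of_associated hpm M.charpoly_monic (hpi.associated_of_dvd hi hpd)]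
  set h := aeval M P with hh
  have hhp : h ^ (q ^ 3 + 1) = 1 := by
    have : Fact (Irreducible f) := ⟨T.irr⟩
    have hroot' : ∀ r, ¬ f.IsRoot r := fun r hr => by
      have := Polynomial.degree_eq_one_of_irreducible_of_root T.irr hr
      rw [degree_eq_natDegree T.irr.ne_zero, hfd] at this
      norm_cast at this
    have h1 := root_pow_of_selfDual_cubic hF (Matrix.charpoly_monic (act T.t))
      (fun h => hroot' 0 (by rw [IsRoot, ← coeff_zero_eq_eval_zero, h]))
      (H66.dualPoly_charpoly_of_mem_GU hF (g := Matrix.SpecialLinearGroup.toGL T.t.1) T.t.2) hfd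
    rw [← AdjoinRoot.mk_X, ← map_pow, ← map_one (AdjoinRoot.mk f)] at h1
    have h2 := aeval_eq_of_mk_eq hP h1
    rwa [map_pow, aeval_X, map_one] at h2
  -- `h` is unitary
  obtain ⟨σ, hσ, hσσ, -⟩ := H66.exists_frobenius_sq hF
  have hadjM : H66.sigAdj σ M = M ^ q ^ 3 := by
    have h1 := (H66.mem_GU_iff σ hσ hσσ (Matrix.SpecialLinearGroup.toGL g.1)).1 g.2
    calc H66.sigAdj σ M = H66.sigAdj σ M * (M * M ^ q ^ 3) := by rw [← pow_succ', hMp, mul_one]
      _ = H66.sigAdj σ M * M * M ^ q ^ 3 := by rw [mul_assoc]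
      _ = M ^ q ^ 3 := by rw [show H66.sigAdj σ M * M = 1 from h1, one_mul]
  have hadj : H66.sigAdj σ h = h ^ q ^ 3 := by
    obtain ⟨p, k, hp, hc, hk, hq⟩ := H3.exists_q_eq_pow hF
    obtain rfl : p = 3 := CharP.eq F hc ‹CharP F 3›
    have h1 := aeval_pow_frob 3 (3 * k) σ (fun a => by
      rw [hσ, pow_mul', ← hq]
      calc a ^ q = ((a ^ q) ^ q) ^ q := by rw [H3.pow_q_pow_q hF]
        _ = a ^ q ^ 3 := by rw [← pow_mul, ← pow_mul]; ring_nf) M P
    rw [pow_mul' 3 3 k, ← hq] at h1
    rw [hh, h1, ← hadjM, sigAdj_aeval]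
  let hu : GL (Fin 3) F := ⟨h, h ^ q ^ 3, by rw [← pow_succ', hhp], by rw [← pow_succ, hhp]⟩
  have hmem : hu ∈ GU 3 F q := (H66.mem_GU_iff σ hσ hσσ hu).2 (by
    show H66.sigAdj σ h * h = 1
    rw [hadj, ← pow_succ, hhp])
  obtain ⟨x, hx⟩ := exists_su_semiconj_root hF T ⟨hu, hmem⟩ hP
  refine ⟨x, Or.inr (hCK (Subgroup.mem_centralizer_singleton_iff.2 ?_))⟩
  refine H3.SU_ext ?_
  show act (x * g * x⁻¹ * T.t) = act (T.t * (x * g * x⁻¹))
  simp only [act_mul, ← hM]
  have hMh : M * h = h * M := ((commute_aeval (Commute.refl M) P).eq).symm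
  have hxi : act x * act x⁻¹ = 1 := by rw [← act_mul, mul_inv_cancel, act_one]
  calc act x * M * act x⁻¹ * act T.t = act x * M * act x⁻¹ * (act T.t * act x) * act x⁻¹ := by
        rw [mul_assoc _ (act T.t * act x), mul_assoc (act T.t), hxi, mul_one]
    _ = act x * M * act x⁻¹ * (act x * h) * act x⁻¹ := by
        rw [show act x * h = act T.t * act x from hx]
    _ = act x * (M * h) * act x⁻¹ := by
        simp only [mul_assoc]
        rw [← mul_assoc (act x⁻¹) (act x), act_inv_mul, one_mul]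
    _ = act T.t * (act x * M * act x⁻¹) := by
        rw [hMh, ← mul_assoc (act x), show act x * h = act T.t * act x from hx]
        simp only [mul_assoc]

end Cfsg.Agent.H62.Covering
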