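/-
Normal forms in `Sp_6(q)`, `q` a power of three: elements are determined by Gram data.
-/
import Cfsg.Agent.H62.Covering.UnitaryThree
import Cfsg.Agent.H2.Center

set_option autoImplicit false

open Matrix Cfsg Cfsg.Agent.H2 Polynomial

namespace Cfsg.Agent.H62.Covering

variable {F : Type*} [Field F] {m : ℕ}

/-- Self-adjointness for the standard alternating form. -/
def SelfAdj (M : Matrix (Fin m ⊕ Fin m) (Fin m ⊕ Fin m) F) : Prop :=
  ∀ x y, sympForm m F (M *ᵥ x) y = sympForm m F x (M *ᵥ y)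

theorem sf_add_left (x x' y : Fin m ⊕ Fin m → F) :
    sympForm m F (x + x') y = sympForm m F x y + sympForm m F x' y := by
  simp only [← sympBilin_apply, map_add, LinearMap.add_apply]

theorem sf_add_right (x y y' : Fin m ⊕ Fin m → F) :
    sympForm m F x (y + y') = sympForm m F x y + sympForm m F x y' := by
  simp only [← sympBilin_apply, map_add]

theorem sf_sub_left (x x' y : Fin m ⊕ Fin m → F) :
    sympForm m F (x - x') y = sympForm m F x y - sympForm m F x' y := by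
  simp only [← sympBilin_apply, map_sub, LinearMap.sub_apply]

theorem sf_sub_right (x y y' : Fin m ⊕ Fin m → F) :
    sympForm m F x (y - y') = sympForm m F x y - sympForm m F x y' := by
  simp only [← sympBilin_apply, map_sub]

theorem sf_smul_left (a : F) (x y : Fin m ⊕ Fin m → F) :
    sympForm m F (a • x) y = a * sympForm m F x y := by
  simp only [← sympBilin_apply, map_smul, LinearMap.smul_apply, smul_eq_mul]

theorem sf_smul_right (a : F) (x y : Fin m ⊕ Fin m → F) :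
    sympForm m F x (a • y) = a * sympForm m F x y := by
  simp only [← sympBilin_apply, map_smul, smul_eq_mul]

theorem sf_zero_left (y : Fin m ⊕ Fin m → F) : sympForm m F 0 y = 0 := by
  simp only [← sympBilin_apply, map_zero, LinearMap.zero_apply]

theorem sf_zero_right (x : Fin m ⊕ Fin m → F) : sympForm m F x 0 = 0 := by
  simp only [← sympBilin_apply, map_zero]

theorem sf_neg_left (x y : Fin m ⊕ Fin m → F) : sympForm m F (-x) y = -sympForm m F x y := by
  simp only [← sympBilin_apply, map_neg, LinearMap.neg_apply]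

theorem SelfAdj.mul {M N : Matrix (Fin m ⊕ Fin m) (Fin m ⊕ Fin m) F} (hM : SelfAdj M) (hN : SelfAdj N)
    (h : Commute M N) : SelfAdj (M * N) := fun x y => by
  rw [← mulVec_mulVec, hM, hN, mulVec_mulVec, h.eq]

theorem SelfAdj.aeval {M : Matrix (Fin m ⊕ Fin m) (Fin m ⊕ Fin m) F} (hM : SelfAdj M) (P : F[X]) :
    SelfAdj (Polynomial.aeval M P) := by
  induction P using Polynomial.induction_on' with
  | add a b ha hb =>
    intro x y
    rw [map_add, add_mulVec, add_mulVec, sf_add_left, sf_add_right, ha, hb]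
  | monomial i a =>
    intro x y
    rw [aeval_monomial, ← Algebra.smul_def, smul_mulVec, smul_mulVec, sf_smul_left, sf_smul_right]
    congr 1
    induction i generalizing x y with
    | zero => simp
    | succ i ih => rw [pow_succ', ← mulVec_mulVec, hM, ih, mulVec_mulVec, ← pow_succ]; simp [pow_succ']

theorem SelfAdj.pow {M : Matrix (Fin m ⊕ Fin m) (Fin m ⊕ Fin m) F} (hM : SelfAdj M) (i : ℕ) :
    SelfAdj (M ^ i) := by
  simpa using hM.aeval (X ^ i)

/-- A self-adjoint matrix moves every vector into its orthogonal. -/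
theorem SelfAdj.self_zero {M : Matrix (Fin m ⊕ Fin m) (Fin m ⊕ Fin m) F} (hM : SelfAdj M)
    (h2 : (2 : F) ≠ 0) (x : Fin m ⊕ Fin m → F) : sympForm m F x (M *ᵥ x) = 0 := by
  have h := hM x x
  rw [sympForm_swap x (M *ᵥ x)] at h
  exact (mul_eq_zero.1 (show (2 : F) * sympForm m F x (M *ᵥ x) = 0 by linear_combination -h)).resolve_left h2

/-- Prescribed pairings with an independent family. -/
theorem exists_sympForm_values {ι : Type*} [Fintype ι] [DecidableEq ι] {p : ι → Fin m ⊕ Fin m → F}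
    (hp : LinearIndependent F p) (a : ι → F) : ∃ u, ∀ i, sympForm m F (p i) u = a i := by
  obtain ⟨g, hg⟩ := (Fintype.linearCombination F p).exists_leftInverse_of_injective
    (LinearMap.ker_eq_bot.2 hp.fintypeLinearCombination_injective)
  set u := ((sympBilin m F).toDual (sympBilin_nondegenerate m F)).symm
    ((Fintype.linearCombination F a).comp g) with hu
  refine ⟨-u, fun i => ?_⟩
  have h1 : g (p i) = Pi.single i 1 := by simpa using LinearMap.congr_fun hg (Pi.single i 1)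
  rw [sympForm_swap (-u), sf_neg_left, neg_neg, ← sympBilin_apply, hu,
    LinearMap.BilinForm.apply_toDual_symm_apply, LinearMap.comp_apply, h1]
  simp

/-- Two pairs of totally isotropic triples with the same pairings give conjugate matrices once the
matrices have the same values on them. -/
theorem conj_of_blocks (p r p' r' : Fin 3 → Fin 3 ⊕ Fin 3 → F) (H : Matrix (Fin 3) (Fin 3) F)
    (hH : H.det ≠ 0) (hpp : ∀ i j, sympForm 3 F (p i) (p j) = 0)
    (hrr : ∀ i j, sympForm 3 F (r i) (r j) = 0) (hpr : ∀ i j, sympForm 3 F (p i) (r j) = H i j)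
    (hpp' : ∀ i j, sympForm 3 F (p' i) (p' j) = 0) (hrr' : ∀ i j, sympForm 3 F (r' i) (r' j) = 0)
    (hpr' : ∀ i j, sympForm 3 F (p' i) (r' j) = H i j)
    (M M' : Matrix (Fin 3 ⊕ Fin 3) (Fin 3 ⊕ Fin 3) F)
    (h11 : ∀ i j, sympForm 3 F (M *ᵥ p i) (p j) = sympForm 3 F (M' *ᵥ p' i) (p' j))
    (h12 : ∀ i j, sympForm 3 F (M *ᵥ p i) (r j) = sympForm 3 F (M' *ᵥ p' i) (r' j))
    (h21 : ∀ i j, sympForm 3 F (M *ᵥ r i) (p j) = sympForm 3 F (M' *ᵥ r' i) (p' j))
    (h22 : ∀ i j, sympForm 3 F (M *ᵥ r i) (r j) = sympForm 3 F (M' *ᵥ r' i) (r' j)) :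
    ∃ y : Matrix.symplecticGroup (Fin 3) F, y.1 * M = M' * y.1 := by
  classical
  have hli : ∀ p r : Fin 3 → Fin 3 ⊕ Fin 3 → F, (∀ i j, sympForm 3 F (p i) (p j) = 0) →
      (∀ i j, sympForm 3 F (r i) (r j) = 0) → (∀ i j, sympForm 3 F (p i) (r j) = H i j) →
      LinearIndependent F (Sum.elim p r) := by
    intro p r hpp hrr hpr
    rw [Fintype.linearIndependent_iff]
    intro c hc
    rw [Fintype.sum_sum_type] at hc
    simp only [Sum.elim_inl, Sum.elim_inr] at hc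
    have ha : vecMul (fun i => c (.inl i)) H = 0 := funext fun j => by
      have h1 := congrArg (fun e => sympBilin 3 F e (r j)) hc
      simpa [map_sum, LinearMap.sum_apply, hrr, hpr, vecMul, dotProduct] using h1
    have hb : H *ᵥ (fun i => c (.inr i)) = 0 := funext fun i => by
      have h1 := congrArg (fun e => sympBilin 3 F (p i) e) hc
      simp only [map_add, map_sum, map_smul, map_zero, sympBilin_apply, hpp, hpr, smul_eq_mul, mul_zero,
        Finset.sum_const_zero, zero_add] at h1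
      simpa [mulVec, dotProduct, mul_comm] using h1
    rintro (i | i)
    · exact congrFun (Matrix.eq_zero_of_vecMul_eq_zero hH ha) i
    · exact congrFun (Matrix.eq_zero_of_mulVec_eq_zero hH hb) i
  set e : Fin (3 + 3) ≃ Fin 3 ⊕ Fin 3 := finSumFinEquiv.symm with he
  have hlb := (hli p r hpp hrr hpr).comp e e.injective
  have hlb' := (hli p' r' hpp' hrr' hpr').comp e e.injective
  obtain ⟨y, hy⟩ := exists_map_tuple (m := 3) _ _ hlb hlb' fun i j => by
    simp only [Function.comp_apply]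
    rcases e i with a | a <;> rcases e j with b | b <;>
      simp [hpp, hrr, hpr, hpp', hrr', hpr', sympForm_swap (p _) (r _), sympForm_swap (p' _) (r' _)]
  have hyb : ∀ k, y.1 *ᵥ Sum.elim p r k = Sum.elim p' r' k := fun k => by simpa using hy (e.symm k)
  have hspan : ∀ f : Fin 3 ⊕ Fin 3 → Fin 3 ⊕ Fin 3 → F, LinearIndependent F f →
      Submodule.span F (Set.range f) = ⊤ := fun f hf =>
    hf.span_eq_top_of_card_eq_finrank (by simp)
  refine ⟨y, Matrix.toLin'.injective (LinearMap.ext_on_range (hspan _ (hli p r hpp hrr hpr)) fun k => ?_)⟩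
  simp only [toLin'_apply, ← mulVec_mulVec, hyb]
  rw [← sub_eq_zero]
  refine sympForm_eq_zero_forall fun z => ?_
  have hz : z ∈ Submodule.span F (Set.range (Sum.elim p' r')) := by
    rw [hspan _ (hli p' r' hpp' hrr' hpr')]; trivial
  induction hz using Submodule.span_induction with
  | mem x hx =>
    obtain ⟨l, rfl⟩ := hx
    rw [sf_sub_left, ← hyb l, sympForm_mulVec, hyb, sub_eq_zero]
    rcases k with a | a <;> rcases l with b | b <;>
      simp [h11, h12, h21, h22]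
  | zero => exact sf_zero_right _
  | add x x' _ _ h h' => rw [sf_add_right, h, h', add_zero]
  | smul a x _ h => rw [sf_smul_right, h, mul_zero]

/-- Self-adjoint matrices killed by the same irreducible cubic are conjugate. -/
theorem conj_selfAdj (h2 : (2 : F) ≠ 0) {c₀ : F[X]} (hci : Irreducible c₀) (hcm : c₀.Monic)
    (hcd : c₀.natDegree = 3) {h h' : Matrix (Fin 3 ⊕ Fin 3) (Fin 3 ⊕ Fin 3) F}
    (hs : SelfAdj h) (hs' : SelfAdj h') (hh : Polynomial.aeval h c₀ = 0) (hh' : Polynomial.aeval h' c₀ = 0) :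
    ∃ y : Matrix.symplecticGroup (Fin 3) F, y.1 * h = h' * y.1 := by
  classical
  set β : ℕ → F := fun k => ((X ^ k : F[X]) %ₘ c₀).coeff 2
  have key : ∀ h : Matrix (Fin 3 ⊕ Fin 3) (Fin 3 ⊕ Fin 3) F, SelfAdj h → Polynomial.aeval h c₀ = 0 →
      ∃ p r : Fin 3 → Fin 3 ⊕ Fin 3 → F, (∀ i j, sympForm 3 F (p i) (p j) = 0) ∧
        (∀ i j, sympForm 3 F (r i) (r j) = 0) ∧
        (∀ i j, sympForm 3 F (p i) (r j) = β ((i : ℕ) + j)) ∧
        (∀ i j, sympForm 3 F (h *ᵥ p i) (p j) = 0) ∧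
        (∀ i j, sympForm 3 F (h *ᵥ r i) (r j) = 0) ∧
        (∀ i j, sympForm 3 F (h *ᵥ p i) (r j) = β ((i : ℕ) + j + 1)) ∧
        (∀ i j, sympForm 3 F (h *ᵥ r i) (p j) = -β ((i : ℕ) + j + 1)) := by
    intro h hs hh
    set v : Fin 3 ⊕ Fin 3 → F := Pi.single (.inl 0) 1 with hvdef
    have hv : v ≠ 0 := by simp [hvdef]
    have hli : LinearIndependent F fun i : Fin 3 => h ^ (i : ℕ) *ᵥ v := by
      rw [Fintype.linearIndependent_iff]
      intro c hc i
      set P : F[X] := ∑ j : Fin 3, C (c j) * X ^ (j : ℕ) with hP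
      have h1 : Polynomial.aeval h P *ᵥ v = 0 := by
        simp only [hP, map_sum, map_mul, map_pow, aeval_X, aeval_C, ← Algebra.smul_def, sum_mulVec,
          smul_mulVec]
        exact hc
      have h3 : P = 0 := by
        by_contra h3
        have h4 := Polynomial.degree_le_of_dvd (dvd_of_aeval_mulVec_eq_zero hci hh hv h1) h3
        have h5 : P.degree < 3 := by
          refine lt_of_le_of_lt (degree_sum_le _ _) ((Finset.sup_lt_iff (by decide)).2 fun j _ => ?_)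
          exact lt_of_le_of_lt (degree_C_mul_X_pow_le _ _) (by exact_mod_cast j.2)
        rw [degree_eq_natDegree hci.ne_zero, hcd] at h4
        exact absurd (lt_of_le_of_lt h4 h5) (lt_irrefl _)
      have h6 := congrArg (fun e => Polynomial.coeff e (i : ℕ)) h3
      simpa [hP, finsetSum_coeff, coeff_X_pow, Fin.val_inj] using h6
    obtain ⟨u, hu⟩ := exists_sympForm_values hli ![0, 0, 1]
    have hβ : ∀ k, sympForm 3 F v (h ^ k *ᵥ u) = β k := by
      intro k
      have hdeg : ((X ^ k : F[X]) %ₘ c₀).natDegree < 3 := by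
        rw [← hcd]
        exact natDegree_modByMonic_lt _ hcm (fun h => by simp [h] at hcd)
      have hk : h ^ k = Polynomial.aeval h ((X ^ k : F[X]) %ₘ c₀) := by
        rw [aeval_modByMonic_eq_self_of_root hh, map_pow, aeval_X]
      rw [hk, aeval_eq_sum_range' hdeg, sum_mulVec, ← sympBilin_apply, map_sum,
        Finset.sum_range_succ, Finset.sum_range_succ, Finset.sum_range_succ, Finset.sum_range_zero]
      simp only [smul_mulVec, map_smul, sympBilin_apply, ← (hs.pow _) v u]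
      rw [show sympForm 3 F (h ^ 0 *ᵥ v) u = 0 from hu 0, show sympForm 3 F (h ^ 1 *ᵥ v) u = 0 from hu 1,
        show sympForm 3 F (h ^ 2 *ᵥ v) u = 1 from hu 2]
      simp [β]
    have hz : ∀ (x : Fin 3 ⊕ Fin 3 → F) (a b : ℕ), sympForm 3 F (h ^ a *ᵥ x) (h ^ b *ᵥ x) = 0 := fun x a b => by
      rw [hs.pow a, mulVec_mulVec, ← pow_add]
      exact (hs.pow _).self_zero h2 x
    refine ⟨fun i => h ^ (i : ℕ) *ᵥ v, fun i => h ^ (i : ℕ) *ᵥ u, fun i j => hz v _ _, fun i j => hz u _ _,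
      fun i j => ?_, fun i j => ?_, fun i j => ?_, fun i j => ?_, fun i j => ?_⟩
    · rw [hs.pow, mulVec_mulVec, ← pow_add, hβ]
    · rw [mulVec_mulVec, ← pow_succ']; exact hz v _ _
    · rw [mulVec_mulVec, ← pow_succ']; exact hz u _ _
    · rw [mulVec_mulVec, ← pow_succ', hs.pow, mulVec_mulVec, ← pow_add, hβ]
      congr 1; omega
    · rw [mulVec_mulVec, ← pow_succ', sympForm_swap, hs.pow, mulVec_mulVec, ← pow_add, hβ]
      congr 2; omega
  obtain ⟨p, r, a1, a2, a3, a4, a5, a6, a7⟩ := key h hs hh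
  obtain ⟨p', r', b1, b2, b3, b4, b5, b6, b7⟩ := key h' hs' hh'
  have hb : β 0 = 0 ∧ β 1 = 0 ∧ β 2 = 1 := by
    have : ∀ k < 3, (X ^ k : F[X]) %ₘ c₀ = X ^ k := fun k hk => by
      rw [modByMonic_eq_self_iff hcm, degree_X_pow, degree_eq_natDegree hci.ne_zero, hcd]
      exact_mod_cast hk
    refine ⟨?_, ?_, ?_⟩ <;> simp only [β] <;> rw [this _ (by norm_num)] <;> simp [coeff_X, coeff_one]
  refine conj_of_blocks p r p' r' (Matrix.of fun i j => β ((i : ℕ) + j)) ?_ a1 a2 a3 b1 b2 b3 h h'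
    (fun i j => by rw [a4, b4]) (fun i j => by rw [a6, b6]) (fun i j => by rw [a7, b7])
    (fun i j => by rw [a5, b5])
  rw [Matrix.det_fin_three]
  simp [hb.1, hb.2.1, hb.2.2]

/-- The action of the inverse. -/
theorem sp_inv_mul (g : Matrix.symplecticGroup (Fin m) F) :
    (g⁻¹ : Matrix.symplecticGroup (Fin m) F).1 * g.1 = 1 := congrArg Subtype.val (inv_mul_cancel g)

theorem sp_mul_inv (g : Matrix.symplecticGroup (Fin m) F) :
    g.1 * (g⁻¹ : Matrix.symplecticGroup (Fin m) F).1 = 1 := congrArg Subtype.val (mul_inv_cancel g)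

/-- `g + g⁻¹ - c`. -/
def spN (g : Matrix.symplecticGroup (Fin m) F) (c : F) : Matrix (Fin m ⊕ Fin m) (Fin m ⊕ Fin m) F :=
  g.1 + (g⁻¹ : Matrix.symplecticGroup (Fin m) F).1 - c • 1

theorem spN_selfAdj (g : Matrix.symplecticGroup (Fin m) F) (c : F) : SelfAdj (spN g c) := fun x y => by
  have h1 : ∀ (g : Matrix.symplecticGroup (Fin m) F) x y,
      sympForm m F (g.1 *ᵥ x) y = sympForm m F x ((g⁻¹ : Matrix.symplecticGroup (Fin m) F).1 *ᵥ y) :=
    fun g x y => by
      conv_rhs => rw [← sympForm_mulVec g, mulVec_mulVec, sp_mul_inv, one_mulVec]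
  have h2 := h1 g⁻¹ x y
  rw [inv_inv] at h2
  simp only [spN, sub_mulVec, add_mulVec, smul_mulVec, one_mulVec, sf_sub_left, sf_sub_right,
    sf_add_left, sf_add_right, sf_smul_left, sf_smul_right, h1 g, h2]
  ring

theorem spN_commute (g : Matrix.symplecticGroup (Fin m) F) (c : F) : Commute (spN g c) g.1 := by
  refine ((Commute.refl g.1).add_left ?_).sub_left ((Commute.one_left g.1).smul_left c)
  show _ * g.1 = g.1 * _
  rw [sp_inv_mul, sp_mul_inv]

/-- `g² = (c + N) g - 1`. -/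
theorem spN_sq (g : Matrix.symplecticGroup (Fin m) F) (c : F) (x : Fin m ⊕ Fin m → F) :
    g.1 *ᵥ (g.1 *ᵥ x) = c • (g.1 *ᵥ x) + spN g c *ᵥ (g.1 *ᵥ x) - x := by
  simp only [spN, sub_mulVec, add_mulVec, smul_mulVec, one_mulVec]
  rw [mulVec_mulVec x (g⁻¹ : Matrix.symplecticGroup (Fin m) F).1 g.1, sp_inv_mul, one_mulVec]
  abel

/-- The invariants of a vector. -/
def spδ (g : Matrix.symplecticGroup (Fin m) F) (c : F) (v : Fin m ⊕ Fin m → F) (i : ℕ) : F :=
  sympForm m F v (g.1 *ᵥ (spN g c ^ i *ᵥ v))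

theorem spδ_shift (g : Matrix.symplecticGroup (Fin m) F) (c : F) (v : Fin m ⊕ Fin m → F) (a b : ℕ) :
    sympForm m F (spN g c ^ a *ᵥ v) (g.1 *ᵥ (spN g c ^ b *ᵥ v)) = spδ g c v (a + b) := by
  rw [(spN_selfAdj g c).pow a, spδ, mulVec_mulVec, ((spN_commute g c).pow_left a).eq, ← mulVec_mulVec,
    mulVec_mulVec _ (spN g c ^ a), ← pow_add]

/-- A nilpotent cyclic element has a normalised vector. -/
theorem exists_normal_vec (h2 : (2 : F) ≠ 0) (g : Matrix.symplecticGroup (Fin m) F) {c : F}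
    (hN : spN g c ^ 3 = 0) {v : Fin m ⊕ Fin m → F} (hv : spδ g c v 2 ≠ 0) :
    ∃ w, spδ g c w 0 = 0 ∧ spδ g c w 1 = 0 ∧ spδ g c w 2 = spδ g c v 2 := by
  set δ := spδ g c v
  have h3 : ∀ k, 3 ≤ k → δ k = 0 := fun k hk => by
    simp only [δ, spδ, show spN g c ^ k = 0 by rw [← Nat.add_sub_cancel' hk, pow_add, hN, zero_mul],
      zero_mulVec, mulVec_zero, sf_zero_right]
  set s := -δ 1 / (2 * δ 2) with hs
  set t := -(δ 0 + 2 * s * δ 1 + s ^ 2 * δ 2) / (2 * δ 2) with ht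
  refine ⟨v + s • (spN g c *ᵥ v) + t • (spN g c ^ 2 *ᵥ v), ?_⟩
  have hexp : ∀ k, spδ g c (v + s • (spN g c *ᵥ v) + t • (spN g c ^ 2 *ᵥ v)) k =
      δ k + 2 * s * δ (k + 1) + (s ^ 2 + 2 * t) * δ (k + 2) + 2 * s * t * δ (k + 3) + t ^ 2 * δ (k + 4) := by
    intro k
    have e : ∀ a, spN g c ^ k *ᵥ (spN g c ^ a *ᵥ v) = spN g c ^ (k + a) *ᵥ v := fun a => by
      rw [mulVec_mulVec, ← pow_add]
    have e0 := spδ_shift g c v 0
    simp only [pow_zero, one_mulVec] at e0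
    nth_rewrite 1 [spδ]
    rw [← pow_one (spN g c)]
    simp only [← pow_mul, one_mul, mulVec_add, mulVec_smul, e, sf_add_left, sf_add_right, sf_smul_left,
      sf_smul_right, spδ_shift, e0]
    simp only [Nat.zero_add, show 1 + (k + 1) = k + 2 by omega,
      show 1 + (k + 2) = k + 3 by omega, show 2 + (k + 1) = k + 3 by omega,
      show 2 + (k + 2) = k + 4 by omega, show 1 + k = k + 1 by omega, show 2 + k = k + 2 by omega, δ]
    ring
  refine ⟨?_, ?_, ?_⟩
  · rw [hexp, h3 (0 + 3) le_rfl, h3 (0 + 4) (by omega), ht]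
    field_simp
    ring
  · rw [hexp, h3 (1 + 2) le_rfl, h3 (1 + 3) (by omega), h3 (1 + 4) (by omega), hs]
    field_simp
    ring
  · rw [hexp, h3 (2 + 1) le_rfl, h3 (2 + 2) (by omega), h3 (2 + 3) (by omega), h3 (2 + 4) (by omega)]
    ring

/-- Rescaling the top invariant by a norm. -/
theorem spδ_norm (h2 : (2 : F) ≠ 0) (g : Matrix.symplecticGroup (Fin m) F) {c : F}
    (hN : spN g c ^ 3 = 0) (v : Fin m ⊕ Fin m → F) (a b : F) :
    spδ g c (a • v + b • (g.1 *ᵥ v)) 2 = (a ^ 2 + c * a * b + b ^ 2) * spδ g c v 2 := by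
  have hcm : ∀ k x, spN g c ^ k *ᵥ (g.1 *ᵥ x) = g.1 *ᵥ (spN g c ^ k *ᵥ x) := fun k x => by
    rw [mulVec_mulVec, ((spN_commute g c).pow_left k).eq, ← mulVec_mulVec]
  have h0 : sympForm m F v (spN g c ^ 2 *ᵥ v) = 0 := ((spN_selfAdj g c).pow 2).self_zero h2 v
  have h4 : spN g c *ᵥ (g.1 *ᵥ (spN g c ^ 2 *ᵥ v)) = 0 := by
    have := hcm 1 (spN g c ^ 2 *ᵥ v)
    rw [pow_one] at this
    rw [this, mulVec_mulVec v (spN g c), ← pow_succ', hN, zero_mulVec, mulVec_zero]
  simp only [spδ, mulVec_add, mulVec_smul, hcm, sf_add_left, sf_add_right, sf_smul_left, sf_smul_right,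
    sympForm_mulVec]
  rw [spN_sq g c (spN g c ^ 2 *ᵥ v), h4, add_zero, sf_sub_right, sf_smul_right, h0]
  ring

/-- The invariants determine the element. -/
theorem conj_of_spδ (h2 : (2 : F) ≠ 0) (g g' : Matrix.symplecticGroup (Fin 3) F) {c d : F} (hd : d ≠ 0)
    (hN : spN g c ^ 3 = 0) (hN' : spN g' c ^ 3 = 0) (v v' : Fin 3 ⊕ Fin 3 → F)
    (hv : spδ g c v 0 = 0 ∧ spδ g c v 1 = 0 ∧ spδ g c v 2 = d)
    (hv' : spδ g' c v' 0 = 0 ∧ spδ g' c v' 1 = 0 ∧ spδ g' c v' 2 = d) :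
    ∃ y : Matrix.symplecticGroup (Fin 3) F, y * g * y⁻¹ = g' := by
  set H : ℕ → F := fun k => if k = 2 then d else 0
  have key : ∀ (g : Matrix.symplecticGroup (Fin 3) F) (v : Fin 3 ⊕ Fin 3 → F), spN g c ^ 3 = 0 →
      spδ g c v 0 = 0 ∧ spδ g c v 1 = 0 ∧ spδ g c v 2 = d →
      ∃ p r : Fin 3 → Fin 3 ⊕ Fin 3 → F, (∀ i j, sympForm 3 F (p i) (p j) = 0) ∧
        (∀ i j, sympForm 3 F (r i) (r j) = 0) ∧
        (∀ i j, sympForm 3 F (p i) (r j) = H ((i : ℕ) + j)) ∧
        (∀ i j, sympForm 3 F (g.1 *ᵥ p i) (p j) = -H ((i : ℕ) + j)) ∧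
        (∀ i j, sympForm 3 F (g.1 *ᵥ p i) (r j) = 0) ∧
        (∀ i j, sympForm 3 F (g.1 *ᵥ r i) (p j) = -(c * H ((i : ℕ) + j) + H ((i : ℕ) + j + 1))) ∧
        (∀ i j, sympForm 3 F (g.1 *ᵥ r i) (r j) = -H ((i : ℕ) + j)) := by
    rintro g v hN ⟨e0, e1, e2⟩
    set N := spN g c
    have hs := spN_selfAdj g c
    have hδ : ∀ k, spδ g c v k = H k := fun k => by
      rcases Nat.lt_or_ge k 3 with hk | hk
      · interval_cases k <;> simp [H, e0, e1, e2]
      · simp only [spδ, show spN g c ^ k = 0 by rw [← Nat.add_sub_cancel' hk, pow_add, hN, zero_mul],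
          zero_mulVec, mulVec_zero, sf_zero_right, H, if_neg (show k ≠ 2 by omega)]
    have hz : ∀ a b : ℕ, sympForm 3 F (N ^ a *ᵥ v) (N ^ b *ᵥ v) = 0 := fun a b => by
      rw [hs.pow a, mulVec_mulVec, ← pow_add]
      exact (hs.pow _).self_zero h2 v
    have hsw : ∀ a b : ℕ, sympForm 3 F (g.1 *ᵥ (N ^ a *ᵥ v)) (N ^ b *ᵥ v) = -H (a + b) := fun a b => by
      rw [sympForm_swap, spδ_shift, hδ, Nat.add_comm]
    refine ⟨fun i => N ^ (i : ℕ) *ᵥ v, fun i => g.1 *ᵥ (N ^ (i : ℕ) *ᵥ v), fun i j => hz _ _,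
      fun i j => by rw [sympForm_mulVec]; exact hz _ _, fun i j => by rw [spδ_shift, hδ],
      fun i j => hsw _ _, fun i j => by rw [sympForm_mulVec]; exact hz _ _, fun i j => ?_,
      fun i j => by rw [sympForm_mulVec]; exact hsw _ _⟩
    rw [spN_sq g c, sf_sub_left, sf_add_left, sf_smul_left, hsw, hz, sub_zero,
      show spN g c *ᵥ (g.1 *ᵥ (N ^ (i : ℕ) *ᵥ v)) = g.1 *ᵥ (N ^ ((i : ℕ) + 1) *ᵥ v) by
        rw [mulVec_mulVec, (spN_commute g c).eq, ← mulVec_mulVec, mulVec_mulVec v (spN g c), ← pow_succ'],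
      hsw, Nat.add_right_comm]
    ring
  obtain ⟨p, r, a1, a2, a3, a4, a5, a6, a7⟩ := key g v hN hv
  obtain ⟨p', r', b1, b2, b3, b4, b5, b6, b7⟩ := key g' v' hN' hv'
  obtain ⟨y, hy⟩ := conj_of_blocks p r p' r' (Matrix.of fun i j => H ((i : ℕ) + j))
    (by rw [Matrix.det_fin_three]; simp [H, hd]) a1 a2 a3 b1 b2 b3 g.1 g'.1
    (fun i j => by rw [a4, b4]) (fun i j => by rw [a5, b5]) (fun i j => by rw [a6, b6])
    (fun i j => by rw [a7, b7])
  exact ⟨y, mul_inv_eq_of_eq_mul (Subtype.ext hy)⟩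

/-- A normalised pair for an element `g` with `g³ = 1`, `(g - 1)² ≠ 0`. -/
theorem exists_pair_vec [CharP F 3] (g : Matrix.symplecticGroup (Fin 3) F)
    (hU : (g.1 - 1) ^ 3 = 0) (hU2 : (g.1 - 1) ^ 2 ≠ 0) :
    ∃ p r : Fin 3 → Fin 3 ⊕ Fin 3 → F, (∀ i, g.1 *ᵥ p i = p (i + 1)) ∧ (∀ i, g.1 *ᵥ r i = r (i + 1)) ∧
      (∀ i j, sympForm 3 F (p i) (p j) = 0) ∧ (∀ i j, sympForm 3 F (r i) (r j) = 0) ∧
      ∀ i j, sympForm 3 F (p i) (r j) = if j + 2 * i = 2 then 1 else 0 := by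
  have : Fact (Nat.Prime 3) := ⟨Nat.prime_three⟩
  have h3 : (3 : F) = 0 := by exact_mod_cast CharP.cast_eq_zero F 3
  have h2 : (2 : F) ≠ 0 := fun h => one_ne_zero (α := F) (by linear_combination h3 - h)
  set U := g.1 - 1 with hUdef
  set B := fun x y => sympForm 3 F x y with hB
  have hg3 : g.1 ^ 3 = 1 := by
    have := sub_pow_char_of_commute 3 (Commute.one_right g.1)
    rw [← hUdef, hU, one_pow] at this
    exact sub_eq_zero.1 this.symm
  have hg3' : ∀ x, g.1 *ᵥ (g.1 *ᵥ (g.1 *ᵥ x)) = x := fun x => by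
    rw [mulVec_mulVec, mulVec_mulVec, ← pow_two, ← pow_succ, hg3, one_mulVec]
  have hU1 : ∀ x, U *ᵥ x = g.1 *ᵥ x - x := fun x => by rw [hUdef, sub_mulVec, one_mulVec]
  have hU2' : ∀ x, U ^ 2 *ᵥ x = g.1 *ᵥ (g.1 *ᵥ x) + g.1 *ᵥ x + x := fun x => by
    rw [pow_two, ← mulVec_mulVec, hU1, hU1, mulVec_sub]
    ext i
    simp only [Pi.sub_apply, Pi.add_apply]
    linear_combination -(g.1 *ᵥ x) i * h3
  -- consequences of invariance
  have hinv : ∀ x y, B (g.1 *ᵥ (g.1 *ᵥ x)) y = B x (g.1 *ᵥ y) := fun x y => by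
    show sympForm 3 F _ _ = sympForm 3 F _ _
    rw [← sympForm_mulVec g, hg3']
  have hinv' : ∀ x y, B (g.1 *ᵥ x) y = B x (g.1 *ᵥ (g.1 *ᵥ y)) := fun x y => by
    show sympForm 3 F _ _ = sympForm 3 F _ _
    rw [← sympForm_mulVec g]
    exact hinv x _
  have hU2adj : ∀ x y, B x (U ^ 2 *ᵥ y) = B (U ^ 2 *ᵥ x) y := fun x y => by
    simp only [hB, hU2', sf_add_left, sf_add_right]
    simp only [hB] at hinv hinv'
    rw [hinv, hinv']
    ring
  have hfix : ∀ {v}, B v (g.1 *ᵥ v) = 0 → ∀ i j : ℕ, B (g.1 ^ i *ᵥ v) (g.1 ^ j *ᵥ v) = 0 := by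
    intro v hv i j
    have h02 : B v (g.1 *ᵥ (g.1 *ᵥ v)) = 0 := by
      rw [← hinv' v v]
      show sympForm 3 F _ _ = 0
      rw [sympForm_swap, show sympForm 3 F v (g.1 *ᵥ v) = 0 from hv, neg_zero]
    have hk : ∀ k : ℕ, B v (g.1 ^ k *ᵥ v) = 0 := fun k => by
      rw [pow_eq_pow_mod k hg3]
      have := Nat.mod_lt k (show 3 > 0 by norm_num)
      interval_cases hk : k % 3
      · simp [hB]
      · rw [pow_one]; exact hv
      · rw [pow_two, ← mulVec_mulVec]; exact h02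
    induction i generalizing j with
    | zero => simpa using hk j
    | succ i ih =>
      rw [pow_succ', ← mulVec_mulVec, hinv', mulVec_mulVec, mulVec_mulVec, ← pow_two, ← pow_add]
      exact ih _
  -- make `B v (g v)` vanish without changing `U² v`
  have hadj : ∀ v y, B v (U ^ 2 *ᵥ y) ≠ 0 → ∃ v', B v' (g.1 *ᵥ v') = 0 ∧ U ^ 2 *ᵥ v' = U ^ 2 *ᵥ v := by
    intro v y hy
    set t := -B v (g.1 *ᵥ v) / (2 * B v (U ^ 2 *ᵥ y)) with ht
    refine ⟨v + t • (U *ᵥ y), ?_, ?_⟩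
    · have hy0 : B (U *ᵥ y) (g.1 *ᵥ (U *ᵥ y)) = 0 := by
        simp only [hB, hU1, mulVec_sub, sf_sub_left, sf_sub_right, sympForm_mulVec, sympForm_self]
        rw [show sympForm 3 F y (g.1 *ᵥ (g.1 *ᵥ y)) = -sympForm 3 F y (g.1 *ᵥ y) from by
          rw [← show sympForm 3 F (g.1 *ᵥ y) y = sympForm 3 F y (g.1 *ᵥ (g.1 *ᵥ y)) from hinv' y y,
            sympForm_swap]]
        linear_combination sympForm 3 F y (g.1 *ᵥ y) * h3
      have hcross : B v (g.1 *ᵥ (U *ᵥ y)) + B (U *ᵥ y) (g.1 *ᵥ v) = 2 * B v (U ^ 2 *ᵥ y) := by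
        simp only [hB]
        rw [sympForm_swap (g.1 *ᵥ v), show sympForm 3 F (g.1 *ᵥ v) (U *ᵥ y) =
          sympForm 3 F v (g.1 *ᵥ (g.1 *ᵥ (U *ᵥ y))) from hinv' v _, hU2']
        simp only [hU1, mulVec_sub, hg3', sf_sub_right, sf_add_right]
        linear_combination (-sympForm 3 F v (g.1 *ᵥ y) - sympForm 3 F v y) * h3
      simp only [hB] at hy hy0 hcross ⊢
      simp only [mulVec_add, mulVec_smul, sf_add_left, sf_add_right, sf_smul_left, sf_smul_right, hy0]
      have htD : t * (2 * sympForm 3 F v (U ^ 2 *ᵥ y)) = -sympForm 3 F v (g.1 *ᵥ v) := by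
        simp only [hB] at ht
        rw [ht, div_mul_cancel₀ _ (mul_ne_zero h2 hy)]
      linear_combination t * hcross + htD
    · rw [mulVec_add, mulVec_smul, mulVec_mulVec _ (U ^ 2), ← pow_succ, hU, zero_mulVec, smul_zero, add_zero]
  obtain ⟨x, hx⟩ : ∃ x, U ^ 2 *ᵥ x ≠ 0 := by
    by_contra h
    push Not at h
    exact hU2 (Matrix.ext_of_mulVec_single fun i => by rw [h, zero_mulVec])
  obtain ⟨z, hz⟩ := exists_sympForm_eq_one hx
  have hxz : B x (U ^ 2 *ᵥ z) ≠ 0 := by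
    rw [hU2adj]
    simp only [hB]
    rw [sympForm_swap, hz]
    simp
  obtain ⟨v, hv, hvx⟩ := hadj x z hxz
  have hvz : B v (U ^ 2 *ᵥ z) ≠ 0 := by rwa [hU2adj, hvx, ← hU2adj]
  have hzv : B z (U ^ 2 *ᵥ v) ≠ 0 := by
    rw [hU2adj]
    simp only [hB]
    rw [sympForm_swap]
    exact neg_ne_zero.2 hvz
  obtain ⟨w, hw, hwz⟩ := hadj z v hzv
  set Q2 := B v (U ^ 2 *ᵥ w) with hQ2
  have hQ2' : Q2 ≠ 0 := by rw [hQ2, hwz]; exact hvz
  -- normalise the pairings
  set P0 := B v w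
  set P1 := B v (g.1 *ᵥ w)
  set P2 := B v (g.1 *ᵥ (g.1 *ᵥ w))
  have hQ : Q2 = P0 + P1 + P2 := by
    simp only [hQ2, hB, hU2', sf_add_right, P0, P1, P2]
    ring
  set Q1 := P1 - P0
  set s := -Q1 / Q2
  set t := -(P0 + s * Q1) / Q2
  set w' := Q2⁻¹ • (w + s • (U *ᵥ w) + t • (U ^ 2 *ᵥ w))
  have hv0 := hfix hv
  have hw0 := hfix hw
  have hw' : B w' (g.1 *ᵥ w') = 0 := by
    have e0 := fun j => hw0 0 j
    have e1 := fun j => hw0 1 j
    have e2 := fun j => hw0 2 j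
    have f00 := e0 0
    have f01 := e0 1
    have f02 := e0 2
    have f10 := e1 0
    have f11 := e1 1
    have f12 := e1 2
    have f20 := e2 0
    have f21 := e2 1
    have f22 := e2 2
    simp only [pow_zero, pow_one, pow_two, one_mulVec, ← mulVec_mulVec, hB] at f00 f01 f02 f10 f11 f12 f20 f21 f22
    simp only [hB, w', hU2', hU1, smul_add, smul_sub, mulVec_add, mulVec_sub, mulVec_smul, hg3', sf_add_left,
      sf_add_right, sf_sub_left, sf_sub_right, sf_smul_left, sf_smul_right, f00, f01, f02, f10, f11, f12, f20,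
      f21, f22]
    ring
  have hP : B v w' = 0 ∧ B v (g.1 *ᵥ w') = 0 ∧ B v (g.1 *ᵥ (g.1 *ᵥ w')) = 1 := by
    have k1 : B v (U *ᵥ w) = Q1 := by simp only [hB, hU1, sf_sub_right, Q1, P0, P1]
    have k3 : ∀ x, B v (g.1 *ᵥ x) = B v x + B v (U *ᵥ x) := fun x => by
      simp only [hB, hU1, sf_sub_right]; ring
    have k4 : B v (U *ᵥ w') = Q2⁻¹ * (Q1 + s * Q2) := by
      simp only [hB, w', mulVec_add, mulVec_smul, sf_add_right, sf_smul_right, mulVec_mulVec _ U (U ^ 2),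
        mulVec_mulVec _ U U, ← pow_succ', ← pow_two, hU, zero_mulVec, sf_zero_right]
      simp only [hB] at k1 hQ2
      rw [k1, ← hQ2]
      ring
    have k5 : B v (U ^ 2 *ᵥ w') = 1 := by
      simp only [hB, w', mulVec_add, mulVec_smul, sf_add_right, sf_smul_right, mulVec_mulVec _ (U ^ 2),
        ← pow_succ, ← pow_add, show U ^ (2 + 2) = 0 by rw [show 2 + 2 = 3 + 1 from rfl, pow_succ, hU, zero_mul],
        hU, zero_mulVec, sf_zero_right]
      simp only [hB] at hQ2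
      rw [← hQ2]
      field_simp
      ring
    have k0 : B v w' = 0 := by
      simp only [hB, w', sf_add_right, sf_smul_right]
      simp only [hB] at k1 hQ2
      rw [k1, ← hQ2, show sympForm 3 F v w = P0 from rfl]
      simp only [t]
      field_simp
      ring
    have k4' : B v (U *ᵥ w') = 0 := by
      rw [k4]
      simp only [s]
      field_simp
      ring
    refine ⟨k0, by rw [k3, k0, k4', add_zero], ?_⟩
    rw [k3, k3, k0, k4', zero_add, zero_add]
    simp only [hU1] at k5 k4' ⊢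
    simp only [hB, hU2', sf_add_right, sf_sub_right] at k5 k4' k0 ⊢
    linear_combination k5 - 2 * k4' - 3 * k0
  have hw0' := hfix hw'
  refine ⟨fun i => g.1 ^ (i : ℕ) *ᵥ v, fun i => g.1 ^ (i : ℕ) *ᵥ w', ?_, ?_, fun i j => hv0 _ _,
    fun i j => hw0' _ _, fun i j => ?_⟩
  · intro i; fin_cases i <;> simp [pow_two, ← mulVec_mulVec, hg3']
  · intro i; fin_cases i <;> simp [pow_two, ← mulVec_mulVec, hg3']
  · obtain ⟨k0, k1, k2⟩ := hP
    simp only [hB] at k0 k1 k2 hinv hinv'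
    fin_cases i <;> fin_cases j <;>
      simp [pow_two, ← mulVec_mulVec, hinv', hg3', k0, k1, k2]

/-- Elements with `(g - 1)³ = 0 ≠ (g - 1)²` are conjugate. -/
theorem conj_of_order_three [CharP F 3] (g g' : Matrix.symplecticGroup (Fin 3) F)
    (hU : (g.1 - 1) ^ 3 = 0) (hU2 : (g.1 - 1) ^ 2 ≠ 0) (hU' : (g'.1 - 1) ^ 3 = 0)
    (hU2' : (g'.1 - 1) ^ 2 ≠ 0) : ∃ y : Matrix.symplecticGroup (Fin 3) F, y * g * y⁻¹ = g' := by
  obtain ⟨p, r, a0, a0', a1, a2, a3⟩ := exists_pair_vec g hU hU2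
  obtain ⟨p', r', b0, b0', b1, b2, b3⟩ := exists_pair_vec g' hU' hU2'
  obtain ⟨y, hy⟩ := conj_of_blocks p r p' r' (Matrix.of fun i j => if j + 2 * i = 2 then 1 else 0)
    (by rw [Matrix.det_fin_three]; simp +decide) a1 a2 a3 b1 b2 b3 g.1 g'.1
    (fun i j => by rw [a0, b0, a1, b1]) (fun i j => by rw [a0, b0, a3, b3])
    (fun i j => by rw [a0', b0', sympForm_swap, sympForm_swap (p' j), a3, b3])
    (fun i j => by rw [a0', b0', a2, b2])
  exact ⟨y, mul_inv_eq_of_eq_mul (Subtype.ext hy)⟩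

end Cfsg.Agent.H62.Covering
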