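/-
`Sp_6(q)` as the semilinear isometries of `L × L`, `L` the cubic extension, and three model elements.
-/
import Cfsg.Agent.H62.Covering.SpSixNormal

set_option autoImplicit false

open Matrix Cfsg Cfsg.Agent.H2 Polynomial

namespace Cfsg.Agent.H62.Covering

local instance factThree : Fact (Nat.Prime 3) := ⟨Nat.prime_three⟩

variable {F : Type*} [Field F] [Fintype F] [CharP F 3]

/-- The cubic extension. -/
abbrev Cub (F : Type*) [Field F] [Fintype F] [CharP F 3] : Type := FiniteField.Extension F 3 3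

theorem finrank_cub : Module.finrank F (Cub F) = 3 := FiniteField.finrank_extension _ _ _

/-- Its Frobenius. -/
noncomputable def frob (F : Type*) [Field F] [Fintype F] [CharP F 3] : Cub F ≃ₐ[F] Cub F :=
  FiniteField.frobeniusAlgEquivOfAlgebraic F (Cub F)

theorem frob_three (a : Cub F) : frob F (frob F (frob F a)) = a := by
  have h : frob F ^ 3 = 1 := by
    conv_lhs => arg 2; rw [← finrank_cub (F := F),
      ← FiniteField.orderOf_frobeniusAlgEquivOfAlgebraic F (Cub F)]
    exact pow_orderOf_eq_one _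
  have h2 := congrArg (fun e : Cub F ≃ₐ[F] Cub F => e a) h
  simpa [pow_succ, AlgEquiv.mul_apply] using h2

theorem trace_eq_frob (a : Cub F) :
    algebraMap F (Cub F) (Algebra.trace F (Cub F) a) = a + frob F a + frob F (frob F a) := by
  rw [FiniteField.algebraMap_trace_eq_sum_pow, finrank_cub, Finset.sum_range_succ, Finset.sum_range_succ,
    Finset.sum_range_one, Nat.card_eq_fintype_card]
  simp [frob, ← pow_mul, pow_two]

theorem trace_frob (a : Cub F) : Algebra.trace F (Cub F) (frob F a) = Algebra.trace F (Cub F) a :=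
  Algebra.trace_eq_of_algEquiv (frob F) a

theorem cub_three : (3 : Cub F) = 0 := by
  have : CharP (Cub F) 3 := charP_of_injective_algebraMap (algebraMap F (Cub F)).injective 3
  exact_mod_cast CharP.cast_eq_zero (Cub F) 3

/-- A basis of the extension. -/
noncomputable def cubBasis (F : Type*) [Field F] [Fintype F] [CharP F 3] : Module.Basis (Fin 3) F (Cub F) :=
  Module.finBasisOfFinrankEq F (Cub F) finrank_cub

/-- The trace dual basis. -/
noncomputable def cubDual (F : Type*) [Field F] [Fintype F] [CharP F 3] : Module.Basis (Fin 3) F (Cub F) :=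
  (Algebra.traceForm F (Cub F)).dualBasis (traceForm_nondegenerate F (Cub F)) (cubBasis F)

/-- Coordinates of the symplectic space in `L × L`. -/
noncomputable def coordE (F : Type*) [Field F] [Fintype F] [CharP F 3] :
    (Fin 3 ⊕ Fin 3 → F) ≃ₗ[F] Cub F × Cub F :=
  (LinearEquiv.sumArrowLequivProdArrow (Fin 3) (Fin 3) F F).trans
    ((cubBasis F).equivFun.symm.prodCongr (cubDual F).equivFun.symm)

/-- The form on `L × L`. -/
noncomputable def cubForm (a b : Cub F × Cub F) : F :=
  Algebra.trace F (Cub F) (a.2 * b.1) - Algebra.trace F (Cub F) (a.1 * b.2)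

theorem sympForm_coordE (u v : Fin 3 ⊕ Fin 3 → F) :
    sympForm 3 F u v = cubForm (coordE F u) (coordE F v) := by
  have key : ∀ x y : Fin 3 → F,
      Algebra.trace F (Cub F) ((cubBasis F).equivFun.symm x * (cubDual F).equivFun.symm y) = ∑ i, x i * y i := by
    intro x y
    rw [← Algebra.traceForm_apply, Module.Basis.equivFun_symm_apply, Module.Basis.equivFun_symm_apply]
    simp only [map_sum, LinearMap.sum_apply, map_smul, LinearMap.smul_apply, cubDual,
      LinearMap.BilinForm.apply_dualBasis_right (B := Algebra.traceForm F (Cub F)) _ (Algebra.traceForm_isSymm F), smul_eq_mul, mul_ite,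
      mul_one, mul_zero]
    simp [mul_comm]
  rw [sympForm_apply, cubForm, Finset.sum_sub_distrib]
  show _ = Algebra.trace F (Cub F) ((cubDual F).equivFun.symm (u ∘ Sum.inr) * (cubBasis F).equivFun.symm (v ∘ Sum.inl)) -
    Algebra.trace F (Cub F) ((cubBasis F).equivFun.symm (u ∘ Sum.inl) * (cubDual F).equivFun.symm (v ∘ Sum.inr))
  rw [mul_comm ((cubDual F).equivFun.symm _), key, key]
  congr 1
  exact Finset.sum_congr rfl fun i _ => mul_comm _ _

/-- The matrix of an endomorphism of `L × L`. -/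
noncomputable def cubMat (f : Cub F × Cub F →ₗ[F] Cub F × Cub F) :
    Matrix (Fin 3 ⊕ Fin 3) (Fin 3 ⊕ Fin 3) F :=
  LinearMap.toMatrixAlgEquiv' ((coordE F).symm.conjAlgEquiv F f)

theorem cubMat_mulVec (f : Cub F × Cub F →ₗ[F] Cub F × Cub F) (u : Fin 3 ⊕ Fin 3 → F) :
    cubMat f *ᵥ u = (coordE F).symm (f (coordE F u)) := by
  rw [← Matrix.toLinAlgEquiv'_apply, cubMat, Matrix.toLinAlgEquiv'_toMatrixAlgEquiv']
  rfl

/-- Multiplication by scalars of `L`. -/
noncomputable def cubMu (F : Type*) [Field F] [Fintype F] [CharP F 3] :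
    Cub F →ₐ[F] Matrix (Fin 3 ⊕ Fin 3) (Fin 3 ⊕ Fin 3) F :=
  LinearMap.toMatrixAlgEquiv'.toAlgHom.comp
    (((coordE F).symm.conjAlgEquiv F).toAlgHom.comp (Algebra.lsmul F F (Cub F × Cub F)))

theorem cubMu_mulVec (a : Cub F) (u : Fin 3 ⊕ Fin 3 → F) :
    cubMu F a *ᵥ u = (coordE F).symm (a • coordE F u) :=
  cubMat_mulVec (Algebra.lsmul F F (Cub F × Cub F) a) u

theorem cubMu_selfAdj (a : Cub F) : SelfAdj (cubMu F a) := fun x y => by
  simp only [sympForm_coordE, cubMu_mulVec, LinearEquiv.apply_symm_apply, cubForm, Prod.smul_fst,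
    Prod.smul_snd, smul_eq_mul]
  congr 2 <;> ring

/-- A primitive element. -/
theorem exists_theta (F : Type*) [Field F] [Fintype F] [CharP F 3] :
    ∃ θ : Cub F, Irreducible (minpoly F θ) ∧ (minpoly F θ).natDegree = 3 ∧
      ∀ a : Cub F, ∃ P : F[X], aeval θ P = a := by
  obtain ⟨θ, hθ⟩ := Field.exists_primitive_element F (Cub F)
  have hint : IsIntegral F θ := IsIntegral.of_finite F θ
  refine ⟨θ, minpoly.irreducible hint, ?_, fun a => ?_⟩
  · rw [← IntermediateField.adjoin.finrank hint, hθ, IntermediateField.finrank_top', finrank_cub]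
  · have h : a ∈ Algebra.adjoin F {θ} := by
      rw [← IntermediateField.adjoin_simple_toSubalgebra_of_isAlgebraic hint.isAlgebraic, hθ]
      trivial
    rw [Algebra.adjoin_singleton_eq_range_aeval] at h
    exact h

/-- The normaliser of the cubic field. -/
def torusK (F : Type*) [Field F] [Fintype F] [CharP F 3] : Subgroup (Matrix.symplecticGroup (Fin 3) F) where
  carrier := {g | ∃ ψ : Cub F ≃ₐ[F] Cub F, ∀ a, g.1 * cubMu F a = cubMu F (ψ a) * g.1}
  one_mem' := ⟨AlgEquiv.refl, fun a => by simp⟩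
  mul_mem' := by
    rintro g h ⟨ψ, hψ⟩ ⟨φ, hφ⟩
    refine ⟨φ.trans ψ, fun a => ?_⟩
    show g.1 * h.1 * _ = _ * (g.1 * h.1)
    rw [mul_assoc, hφ, ← mul_assoc, hψ, mul_assoc]
    rfl
  inv_mem' := by
    rintro g ⟨ψ, hψ⟩
    refine ⟨ψ.symm, fun a => ?_⟩
    have h := hψ (ψ.symm a)
    rw [AlgEquiv.apply_symm_apply] at h
    have h2 := congrArg (fun e => (g⁻¹ : Matrix.symplecticGroup (Fin 3) F).1 * e *
      (g⁻¹ : Matrix.symplecticGroup (Fin 3) F).1) h
    simp only [← mul_assoc, sp_inv_mul, one_mul] at h2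
    rw [mul_assoc (_ * cubMu F a) g.1, sp_mul_inv, mul_one] at h2
    exact h2.symm

theorem torusK_ne_top : torusK F ≠ ⊤ := by
  intro htop
  obtain ⟨θ, hi, hd, -⟩ := exists_theta F
  have hscal : ∀ p : Fin 3 ⊕ Fin 3 → F, p ≠ 0 → ∃ c : F, cubMu F θ *ᵥ p = c • p := by
    intro p hp
    obtain ⟨ψ, hψ⟩ : transv p (1 : F) ∈ torusK F := htop ▸ Subgroup.mem_top _
    -- a vector `y` with `y` and `θ y` orthogonal to `p`
    let f : (Fin 3 ⊕ Fin 3 → F) →ₗ[F] F × F :=
      ((sympBilin 3 F p)).prod ((sympBilin 3 F p).comp (toLin' (cubMu F θ)))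
    have hk : LinearMap.ker f ≠ ⊥ := fun h => by
      have h1 := f.finrank_range_add_finrank_ker
      have h2 := Submodule.finrank_le (LinearMap.range f)
      rw [h, finrank_bot, Module.finrank_fintype_fun_eq_card, Fintype.card_sum, Fintype.card_fin] at h1
      rw [Module.finrank_prod, Module.finrank_self] at h2
      omega
    obtain ⟨y, hy, hy0⟩ := Submodule.exists_mem_ne_zero_of_ne_bot hk
    have hy' : sympForm 3 F p y = 0 ∧ sympForm 3 F p (cubMu F θ *ᵥ y) = 0 := by simpa [f] using hy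
    have hfix : ∀ z, sympForm 3 F p z = 0 → (transv p (1 : F)).1 *ᵥ z = z := fun z hz => by
      rw [coe_transv, sympTransvection_mulVec, sympForm_swap, hz]
      simp
    have h1 := congrArg (· *ᵥ y) (hψ θ)
    simp only [← mulVec_mulVec] at h1
    rw [hfix _ hy'.2, hfix _ hy'.1, cubMu_mulVec, cubMu_mulVec, (coordE F).symm.injective.eq_iff] at h1
    have hψθ : ψ θ = θ := by
      by_contra hne
      have h2 : (θ - ψ θ) • coordE F y = 0 := by rw [sub_smul, h1, sub_self]
      rcases smul_eq_zero.1 h2 with h3 | h3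
      · exact hne (sub_eq_zero.1 h3).symm
      · exact hy0 ((coordE F).map_eq_zero_iff.1 h3)
    obtain ⟨x, hx⟩ := exists_sympForm_eq_one hp
    have h4 := congrArg (· *ᵥ x) (hψ θ)
    simp only [← mulVec_mulVec, hψθ, coe_transv, sympTransvection_mulVec, one_mul, hx, one_smul,
      mulVec_add, add_right_inj] at h4
    exact ⟨_, h4.symm⟩
  set p : Fin 3 ⊕ Fin 3 → F := Pi.single (.inl 0) 1 with hp
  have hp0 : p ≠ 0 := by simp [hp]
  obtain ⟨c, hc⟩ := hscal p hp0
  rw [cubMu_mulVec, LinearEquiv.symm_apply_eq, map_smul, ← algebraMap_smul (Cub F) c, ← sub_eq_zero,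
    ← sub_smul] at hc
  rcases smul_eq_zero.1 hc with h | h
  · rw [sub_eq_zero] at h
    rw [h, minpoly.eq_X_sub_C, natDegree_X_sub_C] at hd
    omega
  · exact hp0 ((coordE F).map_eq_zero_iff.1 h)

/-- An element commuting with a self-adjoint root of an irreducible cubic is conjugate into `torusK`. -/
theorem exists_conj_torusK (g : Matrix.symplecticGroup (Fin 3) F) {θ : Cub F}
    (hi : Irreducible (minpoly F θ)) (hd : (minpoly F θ).natDegree = 3)
    (hgen : ∀ a : Cub F, ∃ P : F[X], aeval θ P = a) {h : Matrix (Fin 3 ⊕ Fin 3) (Fin 3 ⊕ Fin 3) F}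
    (hs : SelfAdj h) (hh : aeval h (minpoly F θ) = 0) (hc : Commute g.1 h) :
    ∃ x : Matrix.symplecticGroup (Fin 3) F, x * g * x⁻¹ ∈ torusK F := by
  have h3 : (3 : F) = 0 := by exact_mod_cast CharP.cast_eq_zero F 3
  have h2 : (2 : F) ≠ 0 := fun h0 => one_ne_zero (α := F) (by linear_combination h3 - h0)
  obtain ⟨y, hy⟩ := conj_selfAdj h2 hi (minpoly.monic (IsIntegral.of_finite F θ)) hd hs (cubMu_selfAdj θ)
    hh (by rw [aeval_algHom_apply, minpoly.aeval, map_zero])
  have h1 : Commute (y * g * y⁻¹).1 (cubMu F θ) := by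
    have hy' : SemiconjBy y.1 h (cubMu F θ) := hy
    have hy'' : SemiconjBy (y⁻¹ : Matrix.symplecticGroup (Fin 3) F).1 (cubMu F θ) h := by
      show _ * _ = _ * _
      calc (y⁻¹ : Matrix.symplecticGroup (Fin 3) F).1 * cubMu F θ
          = (y⁻¹ : Matrix.symplecticGroup (Fin 3) F).1 * (cubMu F θ * y.1) *
              (y⁻¹ : Matrix.symplecticGroup (Fin 3) F).1 := by
            rw [mul_assoc, mul_assoc, sp_mul_inv, mul_one]
        _ = _ := by rw [← hy, ← mul_assoc, sp_inv_mul, one_mul]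
    exact (hy'.mul_left hc).mul_left hy''
  refine ⟨y, AlgEquiv.refl, fun a => ?_⟩
  obtain ⟨P, rfl⟩ := hgen a
  rw [AlgEquiv.coe_refl, id, ← aeval_algHom_apply]
  exact ((commute_aeval h1.symm P).symm).eq

/-- A semilinear isometry with a left inverse. -/
theorem exists_torus_elem (f f' : Cub F × Cub F →ₗ[F] Cub F × Cub F)
    (hf : ∀ a b, cubForm (f a) (f b) = cubForm a b) (hff : ∀ a, f' (f a) = a)
    (hsemi : ∀ a z, f (a • z) = frob F a • f z) :
    ∃ g ∈ torusK F, (∀ u, coordE F (g.1 *ᵥ u) = f (coordE F u)) ∧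
      ∀ u, coordE F ((g⁻¹ : Matrix.symplecticGroup (Fin 3) F).1 *ᵥ u) = f' (coordE F u) := by
  have hmem : cubMat f ∈ Matrix.symplecticGroup (Fin 3) F := mem_symplecticGroup_iff.2 fun u v => by
    simp only [sympForm_coordE, cubMat_mulVec, LinearEquiv.apply_symm_apply, hf]
  refine ⟨⟨cubMat f, hmem⟩, ⟨frob F, fun a => ?_⟩, fun u => ?_, fun u => ?_⟩
  · refine Matrix.toLin'.injective (LinearMap.ext fun u => ?_)
    simp only [toLin'_apply, ← mulVec_mulVec, cubMat_mulVec, cubMu_mulVec, LinearEquiv.apply_symm_apply, hsemi]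
  · rw [cubMat_mulVec, LinearEquiv.apply_symm_apply]
  · set g : Matrix.symplecticGroup (Fin 3) F := ⟨cubMat f, hmem⟩
    have h1 : cubMat f' * g.1 = 1 := Matrix.toLin'.injective (LinearMap.ext fun u => by
      simp [g, cubMat_mulVec, hff])
    rw [← left_inv_eq_right_inv h1 (sp_mul_inv g), cubMat_mulVec, LinearEquiv.apply_symm_apply]

theorem coordE_spN (g : Matrix.symplecticGroup (Fin 3) F) (c : F) {f f' : Cub F × Cub F →ₗ[F] Cub F × Cub F}
    (hg : ∀ u, coordE F (g.1 *ᵥ u) = f (coordE F u))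
    (hg' : ∀ u, coordE F ((g⁻¹ : Matrix.symplecticGroup (Fin 3) F).1 *ᵥ u) = f' (coordE F u))
    (u : Fin 3 ⊕ Fin 3 → F) :
    coordE F (spN g c *ᵥ u) = f (coordE F u) + f' (coordE F u) - c • coordE F u := by
  simp only [spN, sub_mulVec, add_mulVec, smul_mulVec, one_mulVec, map_sub, map_add, map_smul, hg, hg']

/-- A model with `(g - 1)³ = 0 ≠ (g - 1)²`. -/
theorem exists_model_order_three :
    ∃ g ∈ torusK F, (g.1 - 1) ^ 3 = 0 ∧ (g.1 - 1) ^ 2 ≠ 0 := by
  let φ : Cub F →ₗ[F] Cub F := (frob F).toLinearMap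
  obtain ⟨g, hg, hg1, -⟩ := exists_torus_elem (F := F) (φ.prodMap φ) ((φ ∘ₗ φ).prodMap (φ ∘ₗ φ))
    (fun a b => by simp [φ, cubForm, ← map_mul, trace_frob])
    (fun a => by simp [φ, frob_three]) (fun a z => by simp [φ])
  have hU : ∀ u, coordE F ((g.1 - 1) *ᵥ u) = φ.prodMap φ (coordE F u) - coordE F u := fun u => by
    rw [sub_mulVec, one_mulVec, map_sub, hg1]
  refine ⟨g, hg, ?_, fun h => ?_⟩
  · refine Matrix.toLin'.injective (LinearMap.ext fun u => (coordE F).injective ?_)
    have h3 := cub_three (F := F)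
    simp only [toLin'_apply, pow_succ, pow_zero, one_mul, ← mulVec_mulVec, hU, map_sub, map_zero,
      LinearMap.zero_apply, φ, LinearMap.prodMap_apply, Prod.ext_iff, Prod.fst_sub, Prod.snd_sub,
      Prod.fst_zero, Prod.snd_zero, AlgEquiv.toLinearMap_apply, frob_three]
    constructor
    · linear_combination (frob F (coordE F u).1 - frob F (frob F (coordE F u).1)) * h3
    · linear_combination (frob F (coordE F u).2 - frob F (frob F (coordE F u).2)) * h3
  · obtain ⟨e, he⟩ := Algebra.trace_surjective F (Cub F) 1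
    have h1 := hU ((g.1 - 1) *ᵥ (coordE F).symm (e, 0))
    rw [mulVec_mulVec, ← pow_two, h, zero_mulVec, map_zero, hU, LinearEquiv.apply_symm_apply] at h1
    have h4 := congrArg Prod.fst h1
    simp only [φ, LinearMap.prodMap_apply, Prod.fst_sub, Prod.fst_zero, map_sub, AlgEquiv.toLinearMap_apply] at h4
    have h5 := trace_eq_frob e
    rw [he, map_one] at h5
    exact one_ne_zero (α := Cub F) (by linear_combination h5 - h4 + frob F e * cub_three (F := F))

/-- A model for `c ≠ ±2`. -/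
theorem exists_model_generic (c : F) :
    ∃ g ∈ torusK F, ∃ v, spN g c ^ 3 = 0 ∧ spδ g c v 2 = -(c ^ 2 - 4) := by
  let φ : Cub F →ₗ[F] Cub F := (frob F).toLinearMap
  let f : Cub F × Cub F →ₗ[F] Cub F × Cub F :=
    (-(φ ∘ₗ LinearMap.snd F (Cub F) (Cub F))).prod
      (φ ∘ₗ LinearMap.fst F (Cub F) (Cub F) + c • (φ ∘ₗ LinearMap.snd F (Cub F) (Cub F)))
  let f' : Cub F × Cub F →ₗ[F] Cub F × Cub F :=
    (c • (φ ∘ₗ φ ∘ₗ LinearMap.fst F (Cub F) (Cub F)) + φ ∘ₗ φ ∘ₗ LinearMap.snd F (Cub F) (Cub F)).prod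
      (-(φ ∘ₗ φ ∘ₗ LinearMap.fst F (Cub F) (Cub F)))
  have hf : ∀ z, f z = (-frob F z.2, frob F z.1 + c • frob F z.2) := fun z => rfl
  have hf' : ∀ z, f' z = (c • frob F (frob F z.1) + frob F (frob F z.2), -frob F (frob F z.1)) := fun z => rfl
  obtain ⟨g, hg, hg1, hg2⟩ := exists_torus_elem f f'
    (fun a b => by
      simp only [hf, cubForm, add_mul, mul_add, neg_mul, mul_neg, smul_mul_assoc, mul_smul_comm, map_add,
        map_neg, map_smul, ← map_mul, trace_frob, smul_eq_mul]
      ring)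
    (fun a => by
      simp only [hf, hf', map_add, map_neg, map_smul, frob_three, smul_neg, neg_neg]
      ext <;> simp)
    (fun a z => by
      simp only [hf, Prod.smul_mk, Prod.smul_fst, Prod.smul_snd, smul_eq_mul, map_mul, mul_neg, mul_add,
        mul_smul_comm])
  obtain ⟨e, he⟩ := Algebra.trace_surjective F (Cub F) 1
  have h3 := cub_three (F := F)
  refine ⟨g, hg, (coordE F).symm (e, 0), ?_, ?_⟩
  · refine Matrix.toLin'.injective (LinearMap.ext fun u => (coordE F).injective ?_)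
    simp only [toLin'_apply, pow_succ, pow_zero, one_mul, ← mulVec_mulVec, coordE_spN g c hg1 hg2, hf, hf',
      map_zero, LinearMap.zero_apply, map_add, map_sub, map_neg, map_smul, frob_three, Prod.ext_iff,
      Prod.fst_add, Prod.snd_add, Prod.fst_sub, Prod.snd_sub, Prod.smul_fst, Prod.smul_snd, Prod.fst_zero,
      Prod.snd_zero]
    simp only [Algebra.smul_def, map_mul, AlgEquiv.commutes]
    generalize algebraMap F (Cub F) c = k
    generalize (coordE F u).1 = x0
    generalize (coordE F u).2 = y0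
    generalize hx1 : frob F x0 = x1
    generalize hx2 : frob F x1 = x2
    generalize hy1 : frob F y0 = y1
    generalize hy2 : frob F y1 = y2
    constructor
    · linear_combination ((-1)*k*k*k*x1 + (1)*k*k*k*x2 + (-2)*k*k*y1 + (2)*k*k*y2 + (-3)*k*x0 + (1)*k*x1 +
        (2)*k*x2 + (-1)*y1 + (1)*y2) * h3
    · linear_combination ((1)*k*k*k*y1 + (-1)*k*k*k*y2 + (2)*k*k*x1 + (-2)*k*k*x2 + (-3)*k*y0 + (2)*k*y1 +
        (1)*k*y2 + (1)*x1 + (-1)*x2) * h3
  · apply (algebraMap F (Cub F)).injective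
    simp only [spδ, sympForm_coordE, cubForm, pow_succ, pow_zero, one_mul, ← mulVec_mulVec,
      coordE_spN g c hg1 hg2, hg1, LinearEquiv.apply_symm_apply, hf, hf', map_zero, zero_mul,
      map_add, map_sub, map_neg, map_smul, frob_three, Prod.fst_add, Prod.snd_add, Prod.fst_sub, Prod.snd_sub,
      Prod.smul_fst, Prod.smul_snd, smul_zero, neg_zero, add_zero, zero_add, sub_zero, zero_sub]
    simp only [Algebra.smul_def, map_mul, map_add, map_sub, map_neg, map_pow, AlgEquiv.commutes, trace_eq_frob, map_ofNat,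
      mul_zero, map_one, frob_three]
    have h5 := trace_eq_frob e
    rw [he, map_one] at h5
    revert h5
    generalize algebraMap F (Cub F) c = k
    generalize he1 : frob F e = e1
    generalize he2 : frob F e1 = e2
    intro h5
    linear_combination ((1)*k*k*e*e1 + (1)*k*k*e*e2 + (1)*k*k*e1*e2 + (-1)*e*e + (-3)*e*e1 + (-3)*e*e2 +
      (-1)*e1*e1 + (-3)*e1*e2 + (-1)*e2*e2) * h3 + (k*k-4) * (1 + e + e1 + e2) * h5

/-- Models for `c = 2`, one for each value of the invariant. -/
theorem exists_model_two (d : F) :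
    ∃ g ∈ torusK F, ∃ v, spN g (2 : F) ^ 3 = 0 ∧ spδ g (2 : F) v 2 = d := by
  obtain ⟨ζ, hζ⟩ := Algebra.trace_surjective F (Cub F) (-d)
  let φ : Cub F →ₗ[F] Cub F := (frob F).toLinearMap
  let f : Cub F × Cub F →ₗ[F] Cub F × Cub F :=
    (φ ∘ₗ LinearMap.fst F (Cub F) (Cub F)).prod
      (φ ∘ₗ LinearMap.snd F (Cub F) (Cub F) + LinearMap.mulLeft F ζ ∘ₗ φ ∘ₗ LinearMap.fst F (Cub F) (Cub F))
  let f' : Cub F × Cub F →ₗ[F] Cub F × Cub F :=
    (φ ∘ₗ φ ∘ₗ LinearMap.fst F (Cub F) (Cub F)).prod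
      (φ ∘ₗ φ ∘ₗ LinearMap.snd F (Cub F) (Cub F) -
        LinearMap.mulLeft F (frob F (frob F ζ)) ∘ₗ φ ∘ₗ φ ∘ₗ LinearMap.fst F (Cub F) (Cub F))
  have hf : ∀ z, f z = (frob F z.1, frob F z.2 + ζ * frob F z.1) := fun z => rfl
  have hf' : ∀ z, f' z = (frob F (frob F z.1),
      frob F (frob F z.2) - frob F (frob F ζ) * frob F (frob F z.1)) := fun z => rfl
  obtain ⟨g, hg, hg1, hg2⟩ := exists_torus_elem f f'
    (fun a b => by
      have e1 : ∀ x y : Cub F, ζ * frob F x * frob F y = ζ * frob F (x * y) := fun x y => by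
        rw [map_mul]; ring
      have e2 : ∀ x y : Cub F, frob F x * (ζ * frob F y) = ζ * frob F (x * y) := fun x y => by
        rw [map_mul]; ring
      simp only [hf, cubForm, add_mul, mul_add, e1, e2, map_add, ← map_mul (frob F), trace_frob]
      ring)
    (fun a => by
      simp only [hf, hf', map_add, map_mul, frob_three, add_sub_cancel_right, Prod.mk.eta])
    (fun a z => by
      simp only [hf, Prod.smul_mk, Prod.smul_fst, Prod.smul_snd, smul_eq_mul, map_mul, mul_add, mul_left_comm])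
  obtain ⟨e, he⟩ := Algebra.trace_surjective F (Cub F) 1
  have h3 := cub_three (F := F)
  refine ⟨g, hg, (coordE F).symm (e, 0), ?_, ?_⟩
  · refine Matrix.toLin'.injective (LinearMap.ext fun u => (coordE F).injective ?_)
    simp only [toLin'_apply, pow_succ, pow_zero, one_mul, ← mulVec_mulVec, coordE_spN g (2 : F) hg1 hg2, hf,
      hf', map_zero, LinearMap.zero_apply, map_add, map_sub, map_smul, frob_three, Prod.ext_iff, Prod.fst_add,
      Prod.snd_add, Prod.fst_sub, Prod.snd_sub, Prod.smul_fst, Prod.smul_snd, Prod.fst_zero, Prod.snd_zero,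
      mul_zero]
    simp only [Algebra.smul_def, map_mul, map_add, map_sub, map_ofNat, AlgEquiv.commutes, frob_three]
    generalize (coordE F u).1 = x0
    generalize (coordE F u).2 = y0
    generalize hx1 : frob F x0 = x1
    generalize hx2 : frob F x1 = x2
    generalize hy1 : frob F y0 = y1
    generalize hy2 : frob F y1 = y2
    generalize hz1 : frob F ζ = z1
    generalize hz2 : frob F z1 = z2
    constructor
    · linear_combination ((-6)*x0 + (3)*x1 + (3)*x2) * h3
    · linear_combination ((5)*x1*ζ + (2)*x1*z1 + (2)*x1*z2 + (-2)*x2*ζ + (-2)*x2*z1 + (-5)*x2*z2 + (-6)*y0 +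
        (3)*y1 + (3)*y2) * h3
  · apply (algebraMap F (Cub F)).injective
    rw [← neg_neg d, map_neg]
    rw [← hζ]
    simp only [spδ, sympForm_coordE, cubForm, pow_succ, pow_zero, one_mul, ← mulVec_mulVec,
      coordE_spN g (2 : F) hg1 hg2, hg1, LinearEquiv.apply_symm_apply, hf, hf', map_zero, zero_mul,
      map_add, map_sub, map_smul, frob_three, Prod.fst_add, Prod.snd_add, Prod.fst_sub, Prod.snd_sub,
      Prod.smul_fst, Prod.smul_snd, smul_zero, add_zero, zero_add, sub_zero, zero_sub, mul_zero]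
    simp only [Algebra.smul_def, map_mul, map_add, map_sub, map_neg, map_ofNat, AlgEquiv.commutes, trace_eq_frob,
      mul_zero, frob_three]
    have h5 := trace_eq_frob e
    rw [he, map_one] at h5
    revert h5
    generalize he1 : frob F e = e1
    generalize he2 : frob F e1 = e2
    generalize hz1 : frob F ζ = z1
    generalize hz2 : frob F z1 = z2
    intro h5
    linear_combination ((-1)*e*e1*ζ + (2)*e*e1*z1 + (2)*e*e1*z2 + (2)*e*e2*ζ + (2)*e*e2*z1 + (-1)*e*e2*z2 +
      (2)*e1*e2*ζ + (-1)*e1*e2*z1 + (2)*e1*e2*z2) * h3 + (ζ+z1+z2) * (1 + e + e1 + e2) * h5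

end Cfsg.Agent.H62.Covering
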