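/-
`PSp_6(q)`, `q` a power of three, is covered by a plane stabiliser and a cubic field normaliser.
-/
import Cfsg.Agent.H62.Covering.SpSixModel
import Cfsg.Agent.H2.Basis

set_option autoImplicit false

open Matrix Cfsg Cfsg.Agent.H2 Polynomial

namespace Cfsg.Agent.H62.Covering

local instance factThree' : Fact (Nat.Prime 3) := ⟨Nat.prime_three⟩

variable {F : Type*} [Field F]

/-- The stabiliser of the standard hyperbolic plane. -/
def planeH (F : Type*) [Field F] : Subgroup (Matrix.symplecticGroup (Fin 3) F) where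
  carrier := {g | (Submodule.span F {(Pi.single (.inl 0) 1 : Fin 3 ⊕ Fin 3 → F), Pi.single (.inr 0) 1}).map
    (toLin' g.1) = Submodule.span F {Pi.single (.inl 0) 1, Pi.single (.inr 0) 1}}
  one_mem' := by simp only [Set.mem_ofPred_eq, OneMemClass.coe_one, toLin'_one, Submodule.map_id]
  mul_mem' := fun {g h} hg hh => by
    show Submodule.map (toLin' (g.1 * h.1)) _ = _
    rw [toLin'_mul, Submodule.map_comp, hh, hg]
  inv_mem' := fun {g} hg => by
    show Submodule.map (toLin' (g⁻¹ : Matrix.symplecticGroup (Fin 3) F).1) _ = _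
    conv_lhs => rw [← (show Submodule.map (toLin' g.1) _ = _ from hg)]
    rw [← Submodule.map_comp, ← toLin'_mul, sp_inv_mul, toLin'_one, Submodule.map_id]

theorem planeH_ne_top : planeH F ≠ ⊤ := by
  intro htop
  set e₀ : Fin 3 ⊕ Fin 3 → F := Pi.single (.inl 0) 1 with he
  set p : Fin 3 ⊕ Fin 3 → F := Pi.single (.inr 0) 1 + Pi.single (.inl 1) 1 with hp
  have h := (show Submodule.map (toLin' (transv p (1 : F)).1) _ = _ from htop ▸ Subgroup.mem_top (transv p (1 : F))).le
    (Submodule.mem_map_of_mem (Submodule.subset_span (Set.mem_insert e₀ _)))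
  rw [toLin'_apply, coe_transv, sympTransvection_mulVec, Submodule.mem_span_pair] at h
  obtain ⟨a, b, h⟩ := h
  have h1 := congrFun h (.inl 1)
  rw [he, sympForm_single_inl, hp] at h1
  simp at h1

/-- An invariant hyperbolic plane moves an element into `planeH`. -/
theorem exists_conj_plane (g : Matrix.symplecticGroup (Fin 3) F) {x y : Fin 3 ⊕ Fin 3 → F}
    (hxy : sympForm 3 F x y ≠ 0) (hx : g.1 *ᵥ x ∈ Submodule.span F {x, y})
    (hy : g.1 *ᵥ y ∈ Submodule.span F {x, y}) :
    ∃ a : Matrix.symplecticGroup (Fin 3) F, a * g * a⁻¹ ∈ planeH F := by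
  set e₀ : Fin 3 ⊕ Fin 3 → F := Pi.single (.inl 0) 1 with he
  set f₀ : Fin 3 ⊕ Fin 3 → F := Pi.single (.inr 0) 1 with hf
  have hk : sympForm 3 F e₀ f₀ = -1 := by simp [he, hf, sympForm_single_inl]
  set k := sympForm 3 F x y
  obtain ⟨a, -, ha1, ha2⟩ := exists_map_pair (u' := (-k) • e₀) (v' := f₀) hxy
    (by rw [sf_smul_left, hk]; ring)
  have hW : (Submodule.span F {x, y}).map (toLin' a.1) = Submodule.span F {e₀, f₀} := by
    rw [Submodule.map_span, Set.image_insert_eq, Set.image_singleton, toLin'_apply, toLin'_apply, ha1, ha2]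
    refine le_antisymm (Submodule.span_le.2 ?_) (Submodule.span_le.2 ?_)
    · rintro z (rfl | rfl)
      · exact Submodule.smul_mem _ _ (Submodule.subset_span (Set.mem_insert e₀ _))
      · exact Submodule.subset_span (Set.mem_insert_of_mem _ rfl)
    · rintro z (rfl | rfl)
      · rw [SetLike.mem_coe, Submodule.mem_span_pair]
        exact ⟨-k⁻¹, 0, by rw [smul_smul, neg_mul_neg, inv_mul_cancel₀ hxy, one_smul, zero_smul, add_zero]⟩
      · exact Submodule.subset_span (Set.mem_insert_of_mem _ rfl)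
  refine ⟨a, ?_⟩
  show Submodule.map (toLin' (a.1 * g.1 * (a⁻¹ : Matrix.symplecticGroup (Fin 3) F).1)) _ = _
  conv_lhs => rw [← hW]
  rw [← Submodule.map_comp, ← toLin'_mul, mul_assoc, sp_inv_mul, mul_one, toLin'_mul, Submodule.map_comp]
  have hg : (Submodule.span F {x, y}).map (toLin' g.1) = Submodule.span F {x, y} := by
    refine Submodule.eq_of_le_of_finrank_eq (Submodule.map_le_iff_le_comap.2 (Submodule.span_le.2 ?_)) ?_
    · rintro z (rfl | rfl)
      · exact hx
      · exact hy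
    · exact (LinearEquiv.finrank_eq (Submodule.equivMapOfInjective (toLin' g.1)
        (Function.LeftInverse.injective (g := toLin' (g⁻¹ : Matrix.symplecticGroup (Fin 3) F).1) fun z => by
          rw [toLin'_apply, toLin'_apply, mulVec_mulVec, sp_inv_mul, one_mulVec]) _)).symm
  rw [hg, hW]

/-- A singular value of a polynomial for each irreducible factor of the characteristic polynomial. -/
theorem exists_ker_of_dvd_charpoly {ι : Type*} [Fintype ι] [DecidableEq ι] (M : Matrix ι ι F) {r : F[X]}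
    (hr : Irreducible r) (h : r ∣ M.charpoly) : ∃ v, v ≠ 0 ∧ aeval M r *ᵥ v = 0 := by
  have : Fact (Irreducible r) := ⟨hr⟩
  set φ := algebraMap F (AdjoinRoot r)
  have hroot : (M.map φ).charpoly.IsRoot (AdjoinRoot.root r) := by
    rw [Matrix.charpoly_map, IsRoot, eval_map, ← aeval_def, AdjoinRoot.aeval_eq, AdjoinRoot.mk_eq_zero]
    exact h
  obtain ⟨w, hw, hMw⟩ := exists_eigvec (M.map φ) hroot
  refine (Matrix.exists_mulVec_eq_zero_iff (M := aeval M r)).2 (φ.injective ?_)
  have hw2 : ∀ P : F[X], (aeval M P).map φ *ᵥ w = aeval (AdjoinRoot.root r) P • w := by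
    intro P
    induction P using Polynomial.induction_on' with
    | add a b ha hb => rw [map_add, map_add, Matrix.map_add φ (map_add φ), add_mulVec, ha, hb, add_smul]
    | monomial i a =>
      rw [aeval_monomial, aeval_monomial, ← Algebra.smul_def, Matrix.map_smul' (f := φ) a _ (map_mul φ),
        smul_mulVec, ← RingHom.mapMatrix_apply, map_pow, RingHom.mapMatrix_apply, mul_smul]
      congr 1
      induction i with
      | zero => simp
      | succ i ih => rw [pow_succ', ← mulVec_mulVec, ih, mulVec_smul, hMw, smul_smul, ← pow_succ]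
  rw [RingHom.map_det, map_zero, RingHom.mapMatrix_apply, ← Matrix.exists_mulVec_eq_zero_iff]
  refine ⟨w, hw, ?_⟩
  rw [hw2, AdjoinRoot.aeval_eq, AdjoinRoot.mk_self, zero_smul]

/-- A nondegenerate subspace of an alternating space has even dimension. -/
theorem even_finrank_of_nondeg {W : Submodule F (Fin 3 ⊕ Fin 3 → F)}
    (h : ∀ x ∈ W, (∀ y ∈ W, sympForm 3 F x y = 0) → x = 0) : Even (Module.finrank F W) := by
  have hA : ((sympBilin 3 F).restrict W).IsAlt := fun x => sympBilin_isAlt 3 F x.1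
  have hs : ∀ x : W, (∀ y : W, (sympBilin 3 F).restrict W x y = 0) → x = 0 := fun x hx =>
    Subtype.ext (h x.1 x.2 fun y hy => by
      simpa [LinearMap.BilinForm.restrict_apply, LinearMap.domRestrict_apply] using hx ⟨y, hy⟩)
  have hN : ((sympBilin 3 F).restrict W).Nondegenerate :=
    ⟨hs, fun y hy => hs y fun x => by rw [← hA.neg_eq, hy, neg_zero]⟩
  obtain ⟨k, b, -⟩ := exists_symplectic_basis _ hN hA
  rw [Module.finrank_eq_card_basis b, Fintype.card_sum, Fintype.card_fin]
  exact ⟨k, rfl⟩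

/-- An invariant nondegenerate plane. -/
theorem exists_conj_plane_of_finrank (g : Matrix.symplecticGroup (Fin 3) F) {W : Submodule F (Fin 3 ⊕ Fin 3 → F)}
    (hinv : ∀ x ∈ W, g.1 *ᵥ x ∈ W) (h : ∀ x ∈ W, (∀ y ∈ W, sympForm 3 F x y = 0) → x = 0)
    (hd : Module.finrank F W = 2) : ∃ a : Matrix.symplecticGroup (Fin 3) F, a * g * a⁻¹ ∈ planeH F := by
  obtain ⟨x, hx, hx0⟩ := Submodule.exists_mem_ne_zero_of_ne_bot (p := W) fun e => by
    rw [e, finrank_bot] at hd; omega
  obtain ⟨y, hy, hxy⟩ : ∃ y ∈ W, sympForm 3 F x y ≠ 0 := by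
    by_contra hc
    push Not at hc
    exact hx0 (h x hx hc)
  have hspan : Submodule.span F {x, y} = W := by
    refine Submodule.eq_of_le_of_finrank_eq (Submodule.span_le.2 ?_) ?_
    · rintro z (rfl | rfl)
      exacts [hx, hy]
    · rw [hd, show ({x, y} : Set (Fin 3 ⊕ Fin 3 → F)) = Set.range ![x, y] by simp [Set.pair_comm],
        finrank_span_eq_card (linearIndependent_pair_of_sympForm_ne_zero hxy), Fintype.card_fin]
  exact exists_conj_plane g hxy (hspan ▸ hinv x hx) (hspan ▸ hinv y hy)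

variable [Fintype F] [CharP F 3]

/-- Conjugate into one of the two subgroups. -/
def SixCovered (g : Matrix.symplecticGroup (Fin 3) F) : Prop :=
  ∃ a : Matrix.symplecticGroup (Fin 3) F, a * g * a⁻¹ ∈ planeH F ∨ a * g * a⁻¹ ∈ torusK F

omit [Fintype F] in
theorem three_eq_zero' : (3 : F) = 0 := by exact_mod_cast CharP.cast_eq_zero F 3

omit [Fintype F] in
theorem two_ne_zero' : (2 : F) ≠ 0 := fun h => one_ne_zero (α := F) (by
  linear_combination three_eq_zero' (F := F) - h)

theorem sixCovered_of_conj {g g' : Matrix.symplecticGroup (Fin 3) F}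
    (h : ∃ y : Matrix.symplecticGroup (Fin 3) F, y * g * y⁻¹ = g') (hg : g' ∈ torusK F) : SixCovered g := by
  obtain ⟨y, rfl⟩ := h
  exact ⟨y, Or.inr hg⟩

omit [CharP F 3] in
/-- `T = g + g⁻¹` with all factors of degree divisible by three, or a factor of degree one or two. -/
theorem factor_cases {χ : F[X]} (hd : χ.natDegree = 6) (h : ¬ ∀ r : F[X], r.Monic → Irreducible r → r ∣ χ → 3 ∣ r.natDegree) :
    ∃ p : F[X], p.Monic ∧ Irreducible p ∧ p ∣ χ ∧ (p.natDegree = 1 ∨ p.natDegree = 2) := by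
  classical
  have hχ0 : χ ≠ 0 := fun e => by simp [e] at hd
  by_cases hroot : ∃ c, χ.IsRoot c
  · obtain ⟨c, hc⟩ := hroot
    exact ⟨X - C c, monic_X_sub_C c, irreducible_X_sub_C c, dvd_iff_isRoot.2 hc, Or.inl (natDegree_X_sub_C c)⟩
  push Not at h hroot
  obtain ⟨r, hrm, hri, ⟨e, he⟩, hr3⟩ := h
  have he0 : e ≠ 0 := right_ne_zero_of_mul (he ▸ hχ0)
  have hsum : r.natDegree + e.natDegree = 6 := by rw [← natDegree_mul hri.ne_zero he0, ← he, hd]
  have hno : ∀ a : F[X], a ∣ χ → a.natDegree ≠ 1 := fun a ha h1 => by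
    obtain ⟨c, hc⟩ := Polynomial.exists_root_of_degree_eq_one
      ((degree_eq_iff_natDegree_eq (ne_zero_of_dvd_ne_zero hχ0 ha)).2 h1)
    exact hroot c (hc.dvd ha)
  have h1 := hno r ⟨e, he⟩
  have h2 := hno e ⟨r, by rw [he, mul_comm]⟩
  have := hri.natDegree_pos
  rcases (show r.natDegree = 2 ∨ e.natDegree = 2 by omega) with h | h
  · exact ⟨r, hrm, hri, ⟨e, he⟩, Or.inr h⟩
  · refine ⟨normalize e, monic_normalize he0, ?_, (normalize_associated e).dvd.trans ⟨r, by rw [he, mul_comm]⟩,
      Or.inr (by rw [natDegree_eq_of_degree_eq (degree_normalize), h])⟩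
    refine irreducible_of_deg_two (monic_normalize he0)
      (by rw [natDegree_eq_of_degree_eq (degree_normalize), h]) fun c hc => ?_
    exact hroot c (hc.dvd ((normalize_associated e).dvd.trans ⟨r, by rw [he, mul_comm]⟩))

/-- A self-adjoint matrix on a six-dimensional space has no rootless quadratic as minimal polynomial. -/
theorem no_quadratic_selfAdj {S : Matrix (Fin 3 ⊕ Fin 3) (Fin 3 ⊕ Fin 3) F} (hS : SelfAdj S) {p : F[X]}
    (hpi : Irreducible p) (hpm : p.Monic) (hp2 : p.natDegree = 2) (hp : aeval S p = 0) : False := by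
  classical
  set p0 := p.coeff 0
  set p1 := p.coeff 1
  have hroot : ∀ r : F, r ^ 2 + p1 * r + p0 ≠ 0 := fun r hr => by
    have h1 : p.IsRoot r := by
      rw [IsRoot, eval_eq_sum_range, hp2, Finset.sum_range_succ, Finset.sum_range_succ, Finset.sum_range_succ,
        Finset.sum_range_zero, show p.coeff 2 = 1 by rw [← hp2]; exact hpm.coeff_natDegree]
      linear_combination hr
    have h := Polynomial.degree_eq_one_of_irreducible_of_root hpi h1
    rw [degree_eq_natDegree hpi.ne_zero, hp2] at h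
    norm_cast at h
  have hquad : ∀ x, S *ᵥ (S *ᵥ x) = -p1 • (S *ᵥ x) + -p0 • x := fun x => by
    have h : p = X ^ 2 + C p1 * X + C p0 := by
      conv_lhs => rw [hpm.as_sum, hp2]
      simp [Finset.sum_range_succ, p0, p1]
      ring
    have hp' := congrArg (· *ᵥ x) hp
    rw [h, map_add, map_add, aeval_X_pow, map_mul, aeval_C, aeval_C, aeval_X] at hp'
    simp only [add_mulVec, smul_mulVec, Algebra.algebraMap_eq_smul_one, one_mulVec,
      pow_two, ← mulVec_mulVec, zero_mulVec] at hp'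
    rw [neg_smul, neg_smul, ← sub_eq_zero, ← hp']
    abel
  have hz := hS.self_zero two_ne_zero'
  have hnd : ∀ {a b : F}, a ^ 2 + p1 * a * b + p0 * b ^ 2 = 0 → b = 0 ∧ a = 0 := fun {a b} h => by
    by_cases hb : b = 0
    · subst hb; exact ⟨rfl, by simpa using h⟩
    · exact absurd (by field_simp; linear_combination h) (hroot (a / b))
  set v : Fin 3 ⊕ Fin 3 → F := Pi.single (.inl 0) 1 with hv
  obtain ⟨u, hu⟩ := exists_sympForm_eq_one (show v ≠ 0 by simp [hv])
  -- a vector orthogonal to `v, S v, u, S u`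
  let f : (Fin 3 ⊕ Fin 3 → F) →ₗ[F] (Fin 4 → F) :=
    LinearMap.pi ![sympBilin 3 F v, sympBilin 3 F (S *ᵥ v), sympBilin 3 F u, sympBilin 3 F (S *ᵥ u)]
  have hk : LinearMap.ker f ≠ ⊥ := fun h => by
    have h1 := f.finrank_range_add_finrank_ker
    have h2 := Submodule.finrank_le (LinearMap.range f)
    rw [h, finrank_bot, Module.finrank_fintype_fun_eq_card, Fintype.card_sum, Fintype.card_fin] at h1
    rw [Module.finrank_fintype_fun_eq_card, Fintype.card_fin] at h2
    omega
  obtain ⟨z, hzk, hz0⟩ := Submodule.exists_mem_ne_zero_of_ne_bot hk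
  have hzv : ∀ i, ![sympBilin 3 F v, sympBilin 3 F (S *ᵥ v), sympBilin 3 F u, sympBilin 3 F (S *ᵥ u)] i z = 0 :=
    fun i => congrFun hzk i
  have e1 : sympForm 3 F v z = 0 := by simpa using hzv 0
  have e2 : sympForm 3 F (S *ᵥ v) z = 0 := by simpa using hzv 1
  have e3 : sympForm 3 F u z = 0 := by simpa using hzv 2
  have e4 : sympForm 3 F (S *ᵥ u) z = 0 := by simpa using hzv 3
  have e5 : sympForm 3 F v (S *ᵥ z) = 0 := by rw [← hS, e2]
  have e6 : sympForm 3 F u (S *ᵥ z) = 0 := by rw [← hS, e4]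
  have e7 : sympForm 3 F (S *ᵥ v) (S *ᵥ z) = 0 := by
    rw [hS, hquad, sf_add_right, sf_smul_right, sf_smul_right, e5, e1, mul_zero, mul_zero, add_zero]
  have e8 : sympForm 3 F (S *ᵥ u) (S *ᵥ z) = 0 := by
    rw [hS, hquad, sf_add_right, sf_smul_right, sf_smul_right, e6, e3, mul_zero, mul_zero, add_zero]
  have e9 : sympForm 3 F z (S *ᵥ z) = 0 := hz z
  -- the six vectors are independent
  have hli : LinearIndependent F ![v, S *ᵥ v, u, S *ᵥ u, z, S *ᵥ z] := by
    rw [Fintype.linearIndependent_iff]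
    intro c hc
    simp only [Fin.sum_univ_six, Matrix.cons_val] at hc
    have huv : sympForm 3 F v u = -1 := by rw [sympForm_swap, hu]
    set β := sympForm 3 F v (S *ᵥ u)
    have q1 := congrArg (sympBilin 3 F v) hc
    have q2 := congrArg (sympBilin 3 F (S *ᵥ v)) hc
    have q3 := congrArg (fun e => sympBilin 3 F e u) hc
    have q4 := congrArg (fun e => sympBilin 3 F e (S *ᵥ u)) hc
    simp only [map_add, map_smul, LinearMap.add_apply, LinearMap.smul_apply, map_zero, LinearMap.zero_apply,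
      sympBilin_apply, sympForm_self, smul_eq_mul] at q1 q2 q3 q4
    have f1 : sympForm 3 F (S *ᵥ v) v = 0 := by rw [hS, hz v]
    have f2 : sympForm 3 F (S *ᵥ v) u = β := hS v u
    have f3 : sympForm 3 F (S *ᵥ v) (S *ᵥ u) = -p1 * β - p0 * -1 := by
      rw [hS, hquad, sf_add_right, sf_smul_right, sf_smul_right, huv]; ring
    have f4 : sympForm 3 F (S *ᵥ u) u = 0 := by rw [hS, hz u]
    have g1 : sympForm 3 F z u = 0 := by rw [sympForm_swap, e3, neg_zero]
    have g2 : sympForm 3 F (S *ᵥ z) u = 0 := by rw [sympForm_swap, e6, neg_zero]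
    have g3 : sympForm 3 F z (S *ᵥ u) = 0 := by rw [sympForm_swap, e4, neg_zero]
    have g4 : sympForm 3 F (S *ᵥ z) (S *ᵥ u) = 0 := by rw [sympForm_swap, e8, neg_zero]
    rw [hz v, huv, e1, e5] at q1
    rw [f1, f2, f3, e2, e7] at q2
    rw [huv, f2, f4, g1, g2] at q3
    rw [f3, g3, g4, hz u] at q4
    simp only [mul_zero, add_zero, zero_add] at q1 q2 q3 q4
    have hD : β ^ 2 + p1 * β * (-1) + p0 * (-1) ^ 2 ≠ 0 := fun h => by
      have := (hnd h).1
      simp at this
    have c3 : c 3 = 0 := (mul_eq_zero.1 (show c 3 * (β ^ 2 + p1 * β * (-1) + p0 * (-1) ^ 2) = 0 by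
      linear_combination β * q1 + q2)).resolve_right hD
    have c2 : c 2 = 0 := by rw [c3, zero_mul, add_zero] at q1; simpa using q1
    have c1 : c 1 = 0 := (mul_eq_zero.1 (show c 1 * (β ^ 2 + p1 * β * (-1) + p0 * (-1) ^ 2) = 0 by
      linear_combination β * q3 + q4)).resolve_right hD
    have c0 : c 0 = 0 := by rw [c1, zero_mul, add_zero] at q3; simpa using q3
    rw [c0, c1, c2, c3] at hc
    simp only [zero_smul, zero_add] at hc
    have c5 : c 5 = 0 := by
      by_contra h5
      have hsz : S *ᵥ z = (-(c 4) / c 5) • z := by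
        rw [add_eq_zero_iff_eq_neg'] at hc
        rw [div_eq_inv_mul, ← smul_smul, neg_smul, ← hc, smul_smul, inv_mul_cancel₀ h5, one_smul]
      have := hquad z
      rw [hsz, mulVec_smul, hsz, smul_smul, smul_smul, ← add_smul, ← sub_eq_zero, ← sub_smul, smul_eq_zero] at this
      exact hroot (-(c 4) / c 5) (by linear_combination this.resolve_right hz0)
    have c4 : c 4 = 0 := by
      rw [c5, zero_smul, add_zero] at hc
      exact (smul_eq_zero.1 hc).resolve_right hz0
    intro i
    fin_cases i <;> assumption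
  have hspan := hli.span_eq_top_of_card_eq_finrank (by simp)
  refine hz0 (sympForm_eq_zero_forall fun y => ?_)
  have hy : y ∈ Submodule.span F (Set.range ![v, S *ᵥ v, u, S *ᵥ u, z, S *ᵥ z]) := hspan ▸ trivial
  induction hy using Submodule.span_induction with
  | mem x hx =>
    obtain ⟨l, rfl⟩ := hx
    fin_cases l <;> simp [sympForm_swap v z, sympForm_swap (S *ᵥ v) z, sympForm_swap u z,
      sympForm_swap (S *ᵥ u) z, e1, e2, e3, e4, e9]
  | zero => exact sf_zero_right _
  | add x x' _ _ a b => rw [sf_add_right, a, b, add_zero]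
  | smul a x _ b => rw [sf_smul_right, b, mul_zero]

omit [Fintype F] [CharP F 3] in
/-- The dimension of an intermediate kernel. -/
theorem finrank_ker_pow_succ (U : Matrix (Fin 3 ⊕ Fin 3) (Fin 3 ⊕ Fin 3) F) (i : ℕ) :
    Module.finrank F (LinearMap.ker (toLin' (U ^ (i + 1)))) ≤
        Module.finrank F (LinearMap.ker (toLin' U)) + Module.finrank F (LinearMap.ker (toLin' (U ^ i))) ∧
      (LinearMap.ker (toLin' U) ≤ LinearMap.range (toLin' (U ^ i)) →
        Module.finrank F (LinearMap.ker (toLin' (U ^ (i + 1)))) =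
          Module.finrank F (LinearMap.ker (toLin' U)) + Module.finrank F (LinearMap.ker (toLin' (U ^ i)))) := by
  set φ := (toLin' (U ^ i)).domRestrict (LinearMap.ker (toLin' (U ^ (i + 1)))) with hφ
  have hr : LinearMap.range φ ≤ LinearMap.ker (toLin' U) := by
    rintro _ ⟨⟨x, hx⟩, rfl⟩
    rw [LinearMap.mem_ker, toLin'_apply] at hx
    rw [LinearMap.mem_ker, hφ, LinearMap.domRestrict_apply, toLin'_apply, toLin'_apply, mulVec_mulVec,
      ← pow_succ', hx]
  have hker : Module.finrank F (LinearMap.ker φ) = Module.finrank F (LinearMap.ker (toLin' (U ^ i))) := by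
    have hle : LinearMap.ker (toLin' (U ^ i)) ≤ LinearMap.ker (toLin' (U ^ (i + 1))) := fun x hx => by
      rw [LinearMap.mem_ker, toLin'_apply] at hx ⊢
      rw [pow_succ', ← mulVec_mulVec, hx, mulVec_zero]
    have he : LinearMap.ker φ = (LinearMap.ker (toLin' (U ^ i))).comap (LinearMap.ker (toLin' (U ^ (i + 1)))).subtype := by
      ext x; simp [hφ]
    rw [he]
    exact (Submodule.comapSubtypeEquivOfLe hle).finrank_eq
  have hsum := φ.finrank_range_add_finrank_ker
  refine ⟨by have := Submodule.finrank_mono hr; omega, fun hle => ?_⟩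
  have h2 : LinearMap.ker (toLin' U) ≤ LinearMap.range φ := fun y hy => by
    obtain ⟨x, rfl⟩ := hle hy
    rw [LinearMap.mem_ker, toLin'_apply, toLin'_apply, mulVec_mulVec, ← pow_succ'] at hy
    exact ⟨⟨x, by rw [LinearMap.mem_ker, toLin'_apply]; exact hy⟩, rfl⟩
  rw [le_antisymm hr h2] at hsum
  omega

/-- Unipotent elements. -/
theorem covered_unipotent (g : Matrix.symplecticGroup (Fin 3) F) (h5 : (g.1 - 1) ^ 5 = 0) : SixCovered g := by
  classical
  set U := g.1 - 1 with hUdef
  have hU1 : ∀ x, U *ᵥ x = g.1 *ᵥ x - x := fun x => by rw [hUdef, sub_mulVec, one_mulVec]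
  by_cases hA : ∃ x y, U *ᵥ x = 0 ∧ U *ᵥ y = 0 ∧ sympForm 3 F x y ≠ 0
  · obtain ⟨x, y, hx, hy, hxy⟩ := hA
    rw [hU1, sub_eq_zero] at hx hy
    obtain ⟨a, ha⟩ := exists_conj_plane g hxy (by rw [hx]; exact Submodule.subset_span (Set.mem_insert x _))
      (by rw [hy]; exact Submodule.subset_span (Set.mem_insert_of_mem _ rfl))
    exact ⟨a, Or.inl ha⟩
  by_cases hB : ∃ x, U *ᵥ (U *ᵥ x) = 0 ∧ sympForm 3 F (U *ᵥ x) x ≠ 0
  · obtain ⟨x, hx, hxy⟩ := hB
    have hgx : g.1 *ᵥ x = x + U *ᵥ x := by rw [hU1]; abel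
    have hgu : g.1 *ᵥ (U *ᵥ x) = U *ᵥ x := sub_eq_zero.1 (by rw [← hU1]; exact hx)
    obtain ⟨a, ha⟩ := exists_conj_plane g hxy (by rw [hgu]; exact Submodule.subset_span (Set.mem_insert _ _))
      (by rw [hgx]; exact Submodule.add_mem _ (Submodule.subset_span (Set.mem_insert_of_mem _ rfl))
            (Submodule.subset_span (Set.mem_insert _ _)))
    exact ⟨a, Or.inl ha⟩
  push Not at hA hB
  set K1 := LinearMap.ker (toLin' U)
  set K2 := LinearMap.ker (toLin' (U ^ 2))
  have hrefl : (sympBilin 3 F).IsRefl := (sympBilin_isAlt 3 F).isRefl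
  have horth : ∀ W : Submodule F (Fin 3 ⊕ Fin 3 → F), ∀ i : ℕ, W = LinearMap.ker (toLin' (U ^ i)) →
      (∀ y, ∀ x ∈ W, sympForm 3 F x (U ^ i *ᵥ y) = 0) →
      (sympBilin 3 F).orthogonal W = LinearMap.range (toLin' (U ^ i)) := by
    intro W i hW h
    symm
    refine Submodule.eq_of_le_of_finrank_eq ?_ ?_
    · rintro _ ⟨y, rfl⟩
      exact LinearMap.BilinForm.mem_orthogonal_iff.2 fun x hx => by
        show sympBilin 3 F x _ = 0
        rw [sympBilin_apply, toLin'_apply, h y x hx]
    · rw [LinearMap.BilinForm.finrank_orthogonal (sympBilin_nondegenerate 3 F)]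
      have := (toLin' (U ^ i)).finrank_range_add_finrank_ker
      rw [← hW] at this
      omega
  have hfix : ∀ x, U *ᵥ x = 0 → ∀ y, sympForm 3 F x (U *ᵥ y) = 0 := fun x hx y => by
    rw [hU1, sub_eq_zero] at hx
    rw [hU1, sf_sub_right]
    nth_rewrite 1 [← hx]
    rw [sympForm_mulVec, sub_self]
  -- the adjoint of `U`
  have hadj : ∀ x y, sympForm 3 F x (U *ᵥ y) = -sympForm 3 F (U *ᵥ x) (g.1 *ᵥ y) := fun x y => by
    rw [hU1, hU1, sf_sub_left, sf_sub_right, sympForm_mulVec]; ring
  have hK2orth : ∀ y, ∀ x ∈ K2, sympForm 3 F x (U ^ 2 *ᵥ y) = 0 := fun y x hx => by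
    rw [LinearMap.mem_ker, toLin'_apply, pow_two, ← mulVec_mulVec] at hx
    rw [pow_two, ← mulVec_mulVec, hadj, neg_eq_zero]
    have : g.1 *ᵥ (U *ᵥ y) = U *ᵥ (g.1 *ᵥ y) := by simp only [hU1, mulVec_sub]
    rw [this]
    exact hfix _ hx _
  have hR2 := horth K2 2 rfl hK2orth
  have hR1 := horth K1 1 (by rw [pow_one]) (fun y x hx => by
    rw [pow_one]
    exact hfix x (by simpa [K1, LinearMap.mem_ker] using hx) y)
  rw [pow_one] at hR1
  have hK1 : K1 ≤ LinearMap.range (toLin' (U ^ 2)) := by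
    intro x hx
    have hx1 : x ∈ LinearMap.range (toLin' U) := hR1 ▸ LinearMap.BilinForm.mem_orthogonal_iff.2 fun y hy => by
      show sympBilin 3 F y x = 0
      rw [sympBilin_apply]
      exact hA y x (by simpa [K1, LinearMap.mem_ker] using hy) (by simpa [K1, LinearMap.mem_ker] using hx)
    obtain ⟨y, rfl⟩ := hx1
    rw [LinearMap.mem_ker, toLin'_apply, toLin'_apply] at hx
    rw [← hR2, LinearMap.BilinForm.mem_orthogonal_iff]
    intro z hz
    show sympBilin 3 F z _ = 0
    rw [LinearMap.mem_ker, toLin'_apply, pow_two, ← mulVec_mulVec] at hz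
    rw [sympBilin_apply, toLin'_apply, sympForm_swap, neg_eq_zero]
    -- polarise
    have h1 := hB (y + z) (by rw [mulVec_add, mulVec_add, hx, hz, add_zero])
    rw [mulVec_add, sf_add_left, sf_add_right, sf_add_right, hB y hx, hB z hz, zero_add, add_zero] at h1
    have h2 : sympForm 3 F (U *ᵥ z) y = sympForm 3 F (U *ᵥ y) z := by
      rw [sympForm_swap y (U *ᵥ z), hadj]
      have : g.1 *ᵥ z = U *ᵥ z + z := by rw [hU1]; abel
      rw [this, sf_add_right, neg_neg, hA _ _ hx hz, zero_add]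
    rw [h2] at h1
    exact (mul_eq_zero.1 (show (2 : F) * sympForm 3 F (U *ᵥ y) z = 0 by linear_combination h1)).resolve_left
      two_ne_zero'
  have hK1' : K1 ≤ LinearMap.range (toLin' (U ^ 1)) := fun x hx => by
    obtain ⟨y, rfl⟩ := hK1 hx
    exact ⟨U *ᵥ y, by rw [toLin'_apply, toLin'_apply, mulVec_mulVec, pow_two, pow_one]⟩
  have e2 := (finrank_ker_pow_succ U 1).2 hK1'
  have e3 := (finrank_ker_pow_succ U 2).2 hK1
  have e4 := (finrank_ker_pow_succ U 3).1
  have e5 := (finrank_ker_pow_succ U 4).1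
  have etop : Module.finrank F (LinearMap.ker (toLin' (U ^ 5))) = 6 := by
    rw [h5, map_zero, LinearMap.ker_zero, finrank_top, Module.finrank_fintype_fun_eq_card]; simp
  have ele := Submodule.finrank_le (LinearMap.ker (toLin' (U ^ 3)))
  rw [Module.finrank_fintype_fun_eq_card, Fintype.card_sum, Fintype.card_fin] at ele
  simp only [Nat.reduceAdd] at e2 e3 e4 e5
  have e1 : Module.finrank F (LinearMap.ker (toLin' (U ^ 1))) = Module.finrank F (LinearMap.ker (toLin' U)) := by
    rw [pow_one]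
  have e6 : Module.finrank F (LinearMap.ker (toLin' (U ^ 3))) = 6 := by omega
  have hU3 : U ^ 3 = 0 := by
    have h := Submodule.eq_top_of_finrank_eq (S := LinearMap.ker (toLin' (U ^ 3)))
      (by rw [e6, Module.finrank_fintype_fun_eq_card]; simp)
    rw [LinearMap.ker_eq_top] at h
    exact Matrix.toLin'.injective (by rw [h, map_zero])
  have hU2 : U ^ 2 ≠ 0 := fun h => by
    rw [h, map_zero, LinearMap.ker_zero, finrank_top, Module.finrank_fintype_fun_eq_card] at e2
    rw [h, map_zero, LinearMap.ker_zero, finrank_top, Module.finrank_fintype_fun_eq_card] at e3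
    simp at e2 e3
    omega
  obtain ⟨g', hg', h3, h2⟩ := exists_model_order_three (F := F)
  exact sixCovered_of_conj (conj_of_order_three g g' hU3 hU2 h3 h2) hg'

/-- Cube-zero `g + g⁻¹ - c`, with a vector of non-zero invariant. -/
theorem covered_cyclic (g : Matrix.symplecticGroup (Fin 3) F) {c : F} (hc : c ^ 2 ≠ 4 ∨ c = 2)
    (hN : spN g c ^ 3 = 0) {v : Fin 3 ⊕ Fin 3 → F} (hv : spδ g c v 2 ≠ 0) : SixCovered g := by
  have h2 := two_ne_zero' (F := F)
  obtain ⟨g', hg', v', hN', d, hd, hv', w, hw⟩ : ∃ g' ∈ torusK F, ∃ v', spN g' c ^ 3 = 0 ∧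
      ∃ d, d ≠ 0 ∧ spδ g' c v' 2 = d ∧ ∃ w, spδ g c w 2 = d := by
    rcases hc with hc | rfl
    · obtain ⟨g', hg', v', hN', hv'⟩ := exists_model_generic c
      have hd : -(c ^ 2 - 4) ≠ 0 := neg_ne_zero.2 (sub_ne_zero.2 hc)
      obtain ⟨a, b, hab⟩ := H66.exists_normForm_eq_field (L := F) (a := c) (b := -1)
        (fun h => hc (by linear_combination h)) (-(c ^ 2 - 4) / spδ g c v 2)
      refine ⟨g', hg', v', hN', _, hd, hv', a • v + b • (g.1 *ᵥ v), ?_⟩
      rw [spδ_norm h2 g hN, show a ^ 2 + c * a * b + b ^ 2 = a ^ 2 + c * a * b - -1 * b ^ 2 by ring, hab,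
        div_mul_cancel₀ _ hv]
    · obtain ⟨g', hg', v', hN', hv'⟩ := exists_model_two (spδ g (2 : F) v 2)
      exact ⟨g', hg', v', hN', _, hv, hv', v, rfl⟩
  obtain ⟨w1, a0, a1, a2⟩ := exists_normal_vec h2 g hN (v := w) (hw ▸ hd)
  obtain ⟨w2, b0, b1, b2⟩ := exists_normal_vec h2 g' hN' (v := v') (hv' ▸ hd)
  exact sixCovered_of_conj (conj_of_spδ h2 g g' hd hN hN' w1 w2 ⟨a0, a1, a2.trans hw⟩
    ⟨b0, b1, b2.trans hv'⟩) hg'

omit [Fintype F] [CharP F 3] in
/-- Vanishing invariant forces `N² (g - g⁻¹) = 0`. -/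
theorem spN_sq_eq_zero (g : Matrix.symplecticGroup (Fin 3) F) (c : F)
    (h : ∀ v, spδ g c v 2 = 0) :
    spN g c ^ 2 * (g.1 - (g⁻¹ : Matrix.symplecticGroup (Fin 3) F).1) = 0 := by
  set N2 := spN g c ^ 2
  set gi := (g⁻¹ : Matrix.symplecticGroup (Fin 3) F).1
  have hcm : N2 * g.1 = g.1 * N2 := ((spN_commute g c).pow_left 2).eq
  have hgi : ∀ x y, sympForm 3 F (g.1 *ᵥ x) y = sympForm 3 F x (gi *ᵥ y) := fun x y => by
    rw [← sympForm_mulVec g x (gi *ᵥ y), mulVec_mulVec, sp_mul_inv, one_mulVec]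
  refine Matrix.toLin'.injective (LinearMap.ext fun y => ?_)
  rw [map_zero, LinearMap.zero_apply, toLin'_apply]
  refine sympForm_eq_zero_forall fun x => ?_
  rw [sympForm_swap, neg_eq_zero]
  have h0 := h (x + y)
  have hx := h x
  have hy := h y
  simp only [spδ, mulVec_add, sf_add_left, sf_add_right] at h0 hx hy
  rw [hx, hy, zero_add, add_zero] at h0
  rw [← mulVec_mulVec, sub_mulVec, mulVec_sub, sf_sub_right, mulVec_mulVec _ N2 g.1, hcm, ← mulVec_mulVec]
  rw [sympForm_swap (g.1 *ᵥ (spN g c ^ 2 *ᵥ x)) y, hgi, (spN_selfAdj g c).pow 2] at h0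
  linear_combination h0

/-- Elements with `g + g⁻¹ - c` nilpotent, `c ≠ -2`. -/
theorem covered_nilpotent (g : Matrix.symplecticGroup (Fin 3) F) {c : F} (hc : c ≠ -2)
    (hN : spN g c ^ 3 = 0) : SixCovered g := by
  classical
  set N := spN g c with hNdef
  set gi := (g⁻¹ : Matrix.symplecticGroup (Fin 3) F).1 with hgi
  have hc' : c ^ 2 ≠ 4 ∨ c = 2 := by
    by_cases h : c ^ 2 = 4
    · right
      rcases mul_eq_zero.1 (show (c - 2) * (c + 2) = 0 by linear_combination h) with h1 | h1
      · exact sub_eq_zero.1 h1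
      · exact absurd (eq_neg_of_add_eq_zero_left h1) hc
    · exact Or.inl h
  by_cases hv : ∃ v, spδ g c v 2 ≠ 0
  · obtain ⟨v, hv⟩ := hv
    exact covered_cyclic g hc' hN hv
  push Not at hv
  have hE := spN_sq_eq_zero g c hv
  rcases hc' with hc4 | rfl
  swap
  · -- unipotent
    refine covered_unipotent g ?_
    set U := g.1 - 1 with hU
    have hg : g.1 = U + 1 := by rw [hU, sub_add_cancel]
    have hUN : U ^ 2 = g.1 * N := by
      rw [hNdef, spN, mul_sub, mul_add, sp_mul_inv, Matrix.mul_smul, mul_one, hU, pow_two, sub_mul, mul_sub,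
        two_smul]
      noncomm_ring
    have h4 : U ^ 4 = g.1 ^ 2 * N ^ 2 := by
      rw [show U ^ 4 = (U ^ 2) ^ 2 by rw [← pow_mul], hUN, ((spN_commute g 2).symm).mul_pow]
    have h6 : U ^ 6 = 0 := by
      rw [show U ^ 6 = (U ^ 2) ^ 3 by rw [← pow_mul], hUN, ((spN_commute g 2).symm).mul_pow, hN, mul_zero]
    have h7 : U ^ 4 * (g.1 * (g.1 - gi)) = 0 := by
      rw [h4, mul_assoc, ← mul_assoc (N ^ 2), ((spN_commute g 2).pow_left 2).eq, mul_assoc, hE, mul_zero, mul_zero]
    have h8 : g.1 * (g.1 - gi) = U * U + U + U := by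
      rw [mul_sub, sp_mul_inv, hg]; noncomm_ring
    have h9 : U ^ 6 + (U ^ 5 + U ^ 5) = 0 := by
      rw [← h7, h8]; noncomm_ring
    rw [h6, zero_add, ← two_smul F] at h9
    exact (smul_eq_zero.1 h9).resolve_left two_ne_zero'
  -- semisimple part of order prime to three
  have hD2 : (g.1 - gi) * (g.1 - gi) = N * N + (2 * c) • N + (c ^ 2 - 4) • 1 := by
    have e1 : g.1 * gi = 1 := sp_mul_inv g
    have e2 : gi * g.1 = 1 := sp_inv_mul g
    simp only [hNdef, spN, ← hgi, sub_mul, mul_sub, add_mul, mul_add, e1, e2, smul_sub, smul_add,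
      Matrix.smul_mul, Matrix.mul_smul, mul_one, one_mul, smul_smul]
    module
  have hN2 : N ^ 2 = 0 := by
    have h1 : N ^ 2 * ((g.1 - gi) * (g.1 - gi)) = 0 := by rw [← mul_assoc, hE, zero_mul]
    rw [hD2, mul_add, mul_add, Matrix.mul_smul, Matrix.mul_smul, ← pow_two, ← pow_succ, hN, ← pow_add,
      show N ^ (2 + 2) = 0 by rw [show 2 + 2 = 3 + 1 from rfl, pow_succ, hN, zero_mul], smul_zero, zero_add,
      zero_add, mul_one, smul_eq_zero] at h1
    exact h1.resolve_left (sub_ne_zero.2 hc4)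
  set W := LinearMap.ker (toLin' N) with hW
  have hWm : ∀ {x}, x ∈ W ↔ N *ᵥ x = 0 := fun {x} => by simp [hW]
  by_cases hp : ∃ x ∈ W, sympForm 3 F x (g.1 *ᵥ x) ≠ 0
  · obtain ⟨x, hx, hxy⟩ := hp
    obtain ⟨a, ha⟩ := exists_conj_plane g hxy (Submodule.subset_span (Set.mem_insert_of_mem _ rfl)) (by
      rw [spN_sq g c, mulVec_mulVec x (spN g c), (spN_commute g c).eq, ← mulVec_mulVec, hWm.1 hx, mulVec_zero,
        add_zero, Submodule.mem_span_pair]
      exact ⟨-1, c, by rw [neg_one_smul]; abel⟩)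
    exact ⟨a, Or.inl ha⟩
  exfalso
  push Not at hp
  have hNs := spN_selfAdj g c
  have hcm : ∀ (M : Matrix (Fin 3 ⊕ Fin 3) (Fin 3 ⊕ Fin 3) F) x, Commute N M → x ∈ W → M *ᵥ x ∈ W := fun M x hM hx => by
    rw [hWm, mulVec_mulVec, hM.eq, ← mulVec_mulVec, hWm.1 hx, mulVec_zero]
  have hcgi : Commute N gi := by
    show N * gi = gi * N
    calc N * gi = gi * g.1 * (N * gi) := by rw [sp_inv_mul, one_mul]
      _ = gi * (N * g.1) * gi := by
        rw [show N * g.1 = g.1 * N from (spN_commute g c).eq]; simp only [mul_assoc]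
      _ = gi * N := by rw [mul_assoc, mul_assoc, sp_mul_inv, mul_one]
  have hiso : ∀ x ∈ W, ∀ y ∈ W, sympForm 3 F x y = 0 := by
    have hD : ∀ x ∈ W, ∀ y ∈ W, sympForm 3 F x ((g.1 - gi) *ᵥ y) = 0 := fun x hx y hy => by
      have h0 := hp (x + y) (W.add_mem hx hy)
      rw [mulVec_add, sf_add_left, sf_add_right, sf_add_right, hp x hx, hp y hy, zero_add, add_zero] at h0
      have h1 : sympForm 3 F (g.1 *ᵥ x) y = sympForm 3 F x (gi *ᵥ y) := by
        rw [← sympForm_mulVec g x (gi *ᵥ y), mulVec_mulVec, sp_mul_inv, one_mulVec]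
      rw [sympForm_swap (g.1 *ᵥ x) y, h1] at h0
      rw [sub_mulVec, sf_sub_right]
      linear_combination h0
    intro x hx y hy
    have hy' := hcm _ y (Commute.sub_right (spN_commute g c) hcgi) hy
    have h1 := hD x hx _ hy'
    rw [mulVec_mulVec, hD2, add_mulVec, add_mulVec, ← mulVec_mulVec, hWm.1 hy, mulVec_zero, smul_mulVec,
      hWm.1 hy, smul_zero, zero_add, zero_add, smul_mulVec, one_mulVec, sf_smul_right, mul_eq_zero] at h1
    exact h1.resolve_left (sub_ne_zero.2 hc4)
  -- so the kernel is the image, of dimension three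
  have hW3 : Module.finrank F W ≤ 3 := by
    have hle : W ≤ (sympBilin 3 F).orthogonal W := fun y hy => LinearMap.BilinForm.mem_orthogonal_iff.2 fun x hx => by
      show sympBilin 3 F x y = 0
      rw [sympBilin_apply, hiso x hx y hy]
    have h1 := Submodule.finrank_mono hle
    rw [LinearMap.BilinForm.finrank_orthogonal (sympBilin_nondegenerate 3 F),
      Module.finrank_fintype_fun_eq_card, Fintype.card_sum, Fintype.card_fin] at h1
    omega
  set R := LinearMap.range (toLin' N) with hR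
  have hRW : R ≤ W := by
    rintro _ ⟨y, rfl⟩
    rw [hWm, toLin'_apply, mulVec_mulVec, ← pow_two, hN2, zero_mulVec]
  have hR3 : Module.finrank F R = 3 := by
    have h1 := (toLin' N).finrank_range_add_finrank_ker
    have h2 := Submodule.finrank_mono hRW
    rw [Module.finrank_fintype_fun_eq_card, Fintype.card_sum, Fintype.card_fin, ← hR, ← hW] at h1
    omega
  -- `B (N ·, ·)` would be a non-degenerate alternating form in dimension three
  have halt : ∀ x, sympForm 3 F (N *ᵥ x) x = 0 := fun x => by rw [hNs, hNs.self_zero two_ne_zero']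
  obtain ⟨_, ⟨x0, rfl⟩, hx0⟩ := Submodule.exists_mem_ne_zero_of_ne_bot (p := R) fun h => by
    rw [h, finrank_bot] at hR3; omega
  rw [toLin'_apply] at hx0
  obtain ⟨y, hy⟩ := exists_sympForm_eq_one hx0
  set y0 := -y with hy0'
  have hy0 : sympForm 3 F (N *ᵥ x0) y0 = 1 := by
    rw [hy0', sympForm_swap, sf_neg_left, hy, neg_neg]
  have hy0x : sympForm 3 F (N *ᵥ y0) x0 = -1 := by rw [hNs, sympForm_swap, hy0]
  let f : (Fin 3 ⊕ Fin 3 → F) →ₗ[F] F × F := ((sympBilin 3 F (N *ᵥ x0))).prod (sympBilin 3 F (N *ᵥ y0))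
  have hle : ¬ LinearMap.ker f ≤ W := fun h => by
    have h1 := f.finrank_range_add_finrank_ker
    have h2 := Submodule.finrank_le (LinearMap.range f)
    have h3 := Submodule.finrank_mono h
    rw [Module.finrank_fintype_fun_eq_card, Fintype.card_sum, Fintype.card_fin] at h1
    rw [Module.finrank_prod, Module.finrank_self] at h2
    omega
  obtain ⟨z, hz, hzW⟩ := SetLike.not_le_iff_exists.1 hle
  have hz' : sympForm 3 F (N *ᵥ x0) z = 0 ∧ sympForm 3 F (N *ᵥ y0) z = 0 := by simpa [f] using hz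
  have hli : LinearIndependent F ![N *ᵥ x0, N *ᵥ y0, N *ᵥ z] := by
    rw [Fintype.linearIndependent_iff]
    intro a ha
    simp only [Fin.sum_univ_three, Matrix.cons_val] at ha
    have q1 := congrArg (fun e => sympBilin 3 F e y0) ha
    have q2 := congrArg (fun e => sympBilin 3 F e x0) ha
    have r1 : sympForm 3 F (N *ᵥ z) y0 = 0 := by rw [hNs, sympForm_swap, hz'.2, neg_zero]
    have r2 : sympForm 3 F (N *ᵥ z) x0 = 0 := by rw [hNs, sympForm_swap, hz'.1, neg_zero]
    simp [halt, hy0, hy0x, r1, r2] at q1 q2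
    rw [q1, q2, zero_smul, zero_smul, zero_add, zero_add, smul_eq_zero] at ha
    intro i
    fin_cases i
    exacts [q1, q2, ha.resolve_right fun h => hzW (hWm.2 h)]
  have hspan : Submodule.span F (Set.range ![N *ᵥ x0, N *ᵥ y0, N *ᵥ z]) = R := by
    refine Submodule.eq_of_le_of_finrank_eq (Submodule.span_le.2 ?_) ?_
    · rintro _ ⟨i, rfl⟩
      fin_cases i
      exacts [⟨x0, rfl⟩, ⟨y0, rfl⟩, ⟨z, rfl⟩]
    · rw [hR3, finrank_span_eq_card hli, Fintype.card_fin]
  refine hzW (hWm.2 (sympForm_eq_zero_forall fun x => ?_))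
  have hx : N *ᵥ x ∈ Submodule.span F (Set.range ![N *ᵥ x0, N *ᵥ y0, N *ᵥ z]) := hspan ▸ ⟨x, rfl⟩
  rw [hNs]
  generalize N *ᵥ x = e at hx ⊢
  induction hx using Submodule.span_induction with
  | mem e he =>
    obtain ⟨l, rfl⟩ := he
    fin_cases l
    · show sympForm 3 F z (N *ᵥ x0) = 0
      rw [sympForm_swap, hz'.1, neg_zero]
    · show sympForm 3 F z (N *ᵥ y0) = 0
      rw [sympForm_swap, hz'.2, neg_zero]
    · exact hNs.self_zero two_ne_zero' z
  | zero => exact sf_zero_right _
  | add e e' _ _ a b => rw [sf_add_right, a, b, add_zero]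
  | smul a e _ b => rw [sf_smul_right, b, mul_zero]

/-- A self-adjoint nilpotent matrix in dimension six has cube zero. -/
theorem cube_eq_zero {N : Matrix (Fin 3 ⊕ Fin 3) (Fin 3 ⊕ Fin 3) F} (hN : SelfAdj N) {k : ℕ}
    (hk : N ^ k = 0) : N ^ 3 = 0 := by
  classical
  refine Matrix.toLin'.injective (LinearMap.ext fun v => ?_)
  rw [map_zero, LinearMap.zero_apply, toLin'_apply]
  by_contra hv
  have hli : LinearIndependent F fun i : Fin 4 => N ^ (i : ℕ) *ᵥ v := by
    rw [Fintype.linearIndependent_iff]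
    intro a ha
    by_contra hne
    push Not at hne
    -- the least index with a non-zero coefficient
    set P : F[X] := ∑ j : Fin 4, C (a j) * X ^ (j : ℕ) with hP
    have h1 : aeval N P *ᵥ v = 0 := by
      simp only [hP, map_sum, map_mul, map_pow, aeval_X, aeval_C, ← Algebra.smul_def, sum_mulVec, smul_mulVec]
      exact ha
    have hP0 : P ≠ 0 := fun h => by
      obtain ⟨i, hi⟩ := hne
      have h6 := congrArg (fun e => Polynomial.coeff e (i : ℕ)) h
      exact hi (by simpa [hP, finsetSum_coeff, coeff_X_pow, Fin.val_inj] using h6)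
    obtain ⟨j, Q, hQ, hPQ⟩ : ∃ j Q, ¬ (X : F[X]) ∣ Q ∧ P = X ^ j * Q := by
      obtain ⟨j, Q, hQ, hPQ⟩ := WfDvdMonoid.max_power_factor hP0 Polynomial.irreducible_X
      exact ⟨j, Q, hQ, hPQ⟩
    have hj : j ≤ 3 := by
      have hle := natDegree_le_of_dvd (show X ^ j ∣ P from ⟨Q, hPQ⟩) hP0
      rw [natDegree_X_pow] at hle
      refine hle.trans ?_
      rw [hP]
      refine natDegree_sum_le_of_forall_le _ _ fun i _ => (natDegree_C_mul_X_pow_le _ _).trans ?_
      omega
    obtain ⟨s, t, hst⟩ := ((Polynomial.irreducible_X.coprime_iff_not_dvd.2 hQ).pow_left : IsCoprime (X ^ k) Q)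
    have h2 := congrArg (fun e => aeval N (X ^ j * e) *ᵥ v) hst
    simp only [mul_one, map_pow, aeval_X] at h2
    rw [show X ^ j * (s * X ^ k + t * Q) = X ^ k * (X ^ j * s) + t * P by rw [hPQ]; ring, map_add, map_mul,
      map_pow, aeval_X, hk, zero_mul, zero_add, map_mul, ← mulVec_mulVec, h1, mulVec_zero] at h2
    refine hv ?_
    rw [show N ^ 3 = N ^ (3 - j) * N ^ j by rw [← pow_add, Nat.sub_add_cancel hj], ← mulVec_mulVec, ← h2, mulVec_zero]
  -- four orthogonal independent vectors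
  set W := Submodule.span F (Set.range fun i : Fin 4 => N ^ (i : ℕ) *ᵥ v)
  have hiso : ∀ x ∈ W, ∀ y ∈ W, sympForm 3 F x y = 0 := by
    intro x hx y hy
    induction hx using Submodule.span_induction with
    | mem e he =>
      obtain ⟨i, rfl⟩ := he
      induction hy using Submodule.span_induction with
      | mem e he =>
        obtain ⟨j, rfl⟩ := he
        rw [hN.pow, mulVec_mulVec, ← pow_add]
        exact (hN.pow _).self_zero two_ne_zero' v
      | zero => exact sf_zero_right _
      | add e e' _ _ a b => rw [sf_add_right, a, b, add_zero]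
      | smul a e _ b => rw [sf_smul_right, b, mul_zero]
    | zero => exact sf_zero_left _
    | add e e' _ _ a b => rw [sf_add_left, a, b, add_zero]
    | smul a e _ b => rw [sf_smul_left, b, mul_zero]
  have hle : W ≤ (sympBilin 3 F).orthogonal W := fun y hy => LinearMap.BilinForm.mem_orthogonal_iff.2 fun x hx => by
    show sympBilin 3 F x y = 0
    rw [sympBilin_apply, hiso x hx y hy]
  have h1 := Submodule.finrank_mono hle
  rw [LinearMap.BilinForm.finrank_orthogonal (sympBilin_nondegenerate 3 F),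
    Module.finrank_fintype_fun_eq_card, Fintype.card_sum, Fintype.card_fin,
    show Module.finrank F W = 4 by rw [finrank_span_eq_card hli, Fintype.card_fin]] at h1
  omega

/-- The negative of the identity. -/
def spNegOne (F : Type*) [Field F] : Matrix.symplecticGroup (Fin 3) F :=
  ⟨-1, SymplecticGroup.neg_mem (one_mem _)⟩

omit [Fintype F] [CharP F 3] in
theorem spNegOne_mem_planeH : spNegOne F ∈ planeH F := by
  show Submodule.map (toLin' (-1 : Matrix (Fin 3 ⊕ Fin 3) (Fin 3 ⊕ Fin 3) F)) _ = _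
  rw [map_neg, toLin'_one, Submodule.map_neg, Submodule.map_id]

theorem spNegOne_mem_torusK : spNegOne F ∈ torusK F :=
  ⟨AlgEquiv.refl, fun a => by simp [spNegOne]⟩

theorem covered_neg {g : Matrix.symplecticGroup (Fin 3) F} (h : SixCovered (spNegOne F * g)) :
    SixCovered g := by
  obtain ⟨a, ha⟩ := h
  have hz : a * (spNegOne F * g) * a⁻¹ = spNegOne F * (a * g * a⁻¹) := by
    apply Subtype.ext
    show a.1 * (-1 * g.1) * (a⁻¹ : Matrix.symplecticGroup (Fin 3) F).1 = -1 * (a.1 * g.1 * _)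
    noncomm_ring
  rw [hz, Subgroup.mul_mem_cancel_left _ spNegOne_mem_planeH,
    Subgroup.mul_mem_cancel_left _ spNegOne_mem_torusK] at ha
  exact ⟨a, ha⟩

/-- Every element of `Sp_6(q)` is conjugate into one of the two subgroups. -/
theorem sp_six_covered (g : Matrix.symplecticGroup (Fin 3) F) : SixCovered g := by
  classical
  set T := spN g 0 with hT
  have hTs := spN_selfAdj g 0
  have hTg := spN_commute g 0
  obtain ⟨θ, hθi, hθd, hgen⟩ := exists_theta F
  by_cases hall : ∀ r : F[X], r.Monic → Irreducible r → r ∣ T.charpoly → 3 ∣ r.natDegree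
  · obtain ⟨P, hP⟩ := exists_aeval_root T hθi fun r a b c => by rw [hθd]; exact hall r a b c
    obtain ⟨x, hx⟩ := exists_conj_torusK g hθi hθd hgen (hTs.aeval P) hP (commute_aeval hTg P).symm
    exact ⟨x, Or.inr hx⟩
  obtain ⟨p, hpm, hpi, hpd, hp12⟩ := factor_cases
    (by rw [Matrix.charpoly_natDegree_eq_dim, Fintype.card_sum, Fintype.card_fin]) hall
  set f := aeval T (p ^ 6) with hf
  have hfs : SelfAdj f := hTs.aeval _
  have hfg : Commute f g.1 := commute_aeval hTg _
  set W := LinearMap.ker (toLin' f) with hW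
  set R := LinearMap.range (toLin' f) with hR
  have hstab : LinearMap.ker (toLin' (f * f)) = W := by
    have h1 := Module.End.ker_pow_eq_ker_pow_finrank_of_le (f := toLin' (aeval T p))
      (m := 12) (by rw [Module.finrank_fintype_fun_eq_card]; simp)
    have h2 := Module.End.ker_pow_eq_ker_pow_finrank_of_le (f := toLin' (aeval T p))
      (m := 6) (by rw [Module.finrank_fintype_fun_eq_card]; simp)
    rw [← Matrix.toLin'_pow] at h1 h2
    rw [hW, show f * f = aeval T p ^ 12 by rw [hf, map_pow, ← pow_add], show f = aeval T p ^ 6 by rw [hf, map_pow],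
      h1, ← h2]
  have hdim : Module.finrank F R + Module.finrank F W = 6 := by
    rw [(toLin' f).finrank_range_add_finrank_ker, Module.finrank_fintype_fun_eq_card]; simp
  have hdisj : ∀ x ∈ W, x ∈ R → x = 0 := by
    rintro _ hx ⟨y, rfl⟩
    rw [hW, LinearMap.mem_ker, toLin'_apply, toLin'_apply, mulVec_mulVec] at hx
    have : y ∈ LinearMap.ker (toLin' (f * f)) := by simpa using hx
    rw [hstab] at this
    exact this
  have hperp : ∀ x ∈ W, ∀ y ∈ R, sympForm 3 F x y = 0 := by
    rintro x hx _ ⟨y, rfl⟩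
    rw [hW, LinearMap.mem_ker, toLin'_apply] at hx
    rw [toLin'_apply, ← hfs, hx, sf_zero_left]
  have hsup : W ⊔ R = ⊤ := by
    refine Submodule.eq_top_of_finrank_eq ?_
    have h1 := Submodule.finrank_sup_add_finrank_inf_eq W R
    rw [show W ⊓ R = ⊥ from (Submodule.eq_bot_iff _).2 fun x hx => hdisj x hx.1 hx.2, finrank_bot] at h1
    rw [Module.finrank_fintype_fun_eq_card]
    simp
    omega
  have hnd : ∀ A B : Submodule F (Fin 3 ⊕ Fin 3 → F), A ⊔ B = ⊤ → (∀ x ∈ A, ∀ y ∈ B, sympForm 3 F x y = 0) →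
      ∀ x ∈ A, (∀ y ∈ A, sympForm 3 F x y = 0) → x = 0 := fun A B h hAB x hx hxA =>
    sympForm_eq_zero_forall fun y => by
      obtain ⟨a, ha, b, hb, rfl⟩ := Submodule.mem_sup.1 (h ▸ (trivial : y ∈ (⊤ : Submodule F _)) : y ∈ A ⊔ B)
      rw [sf_add_right, hxA a ha, hAB x hx b hb, add_zero]
  have hWn := hnd W R hsup hperp
  have hRn := hnd R W (by rw [sup_comm, hsup]) (fun x hx y hy => by rw [sympForm_swap, hperp y hy x hx, neg_zero])
  obtain ⟨v, hv, hpv⟩ := exists_ker_of_dvd_charpoly T hpi hpd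
  have hW0 : 1 ≤ Module.finrank F W := by
    refine Submodule.one_le_finrank_iff.2 ((Submodule.ne_bot_iff W).2 ⟨v, ?_, hv⟩)
    rw [hW, LinearMap.mem_ker, toLin'_apply, hf, map_pow, pow_succ, ← mulVec_mulVec, hpv, mulVec_zero]
  obtain ⟨e, he⟩ := even_finrank_of_nondeg hWn
  rcases (show Module.finrank F W = 2 ∨ Module.finrank F R = 2 ∨ Module.finrank F W = 6 by omega) with h | h | h
  · obtain ⟨a, ha⟩ := exists_conj_plane_of_finrank g (fun x hx => by
      rw [hW, LinearMap.mem_ker, toLin'_apply] at hx ⊢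
      rw [mulVec_mulVec, hfg.eq, ← mulVec_mulVec, hx, mulVec_zero]) hWn h
    exact ⟨a, Or.inl ha⟩
  · obtain ⟨a, ha⟩ := exists_conj_plane_of_finrank g (by
      rintro _ ⟨y, rfl⟩
      exact ⟨g.1 *ᵥ y, by rw [toLin'_apply, toLin'_apply, mulVec_mulVec, hfg.eq, ← mulVec_mulVec]⟩) hRn h
    exact ⟨a, Or.inl ha⟩
  have hf0 : f = 0 := by
    have h1 := Submodule.eq_top_of_finrank_eq (S := W) (by rw [h, Module.finrank_fintype_fun_eq_card]; simp)
    rw [hW, LinearMap.ker_eq_top] at h1
    exact Matrix.toLin'.injective (by rw [h1, map_zero])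
  rcases hp12 with hp | hp
  swap
  · -- a quadratic is impossible
    obtain ⟨P, hP⟩ := exists_aeval_root T hpi fun r hrm hri hrd => by
      obtain ⟨w, hw, hrw⟩ := exists_ker_of_dvd_charpoly T hri hrd
      by_cases hrp : r ∣ p
      · rw [eq_of_monic_of_associated hrm hpm (hri.associated_of_dvd hpi hrp)]
      · exfalso
        obtain ⟨s, t, hst⟩ := ((hri.coprime_iff_not_dvd.2 hrp).pow_right : IsCoprime r (p ^ 6))
        have h2 := congrArg (fun e => aeval T e *ᵥ w) hst
        simp only [map_add, map_mul, map_one, one_mulVec, add_mulVec] at h2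
        rw [← hf, hf0, mul_zero, zero_mulVec, add_zero, ← mulVec_mulVec, hrw, mulVec_zero] at h2
        exact hw h2.symm
    exact (no_quadratic_selfAdj (hTs.aeval P) hpi hpm hp hP).elim
  set c := -p.coeff 0 with hc
  have hpc : aeval T p = spN g c := by
    rw [hpm.eq_X_add_C hp, map_add, aeval_X, aeval_C, hT, Algebra.algebraMap_eq_smul_one]
    simp [spN, hc]
  have hN : spN g c ^ 3 = 0 := cube_eq_zero (spN_selfAdj g c) (k := 6) (by rw [← hpc, ← map_pow, ← hf, hf0])
  by_cases hc2 : c = -2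
  · refine covered_neg (covered_nilpotent (spNegOne F * g) (c := 2) ?_ ?_)
    · intro h2
      exact two_ne_zero' (F := F) (by linear_combination -h2 + 2 * three_eq_zero' (F := F))
    · have hneg : spN (spNegOne F * g) (2 : F) = -spN g c := by
        have hi : ((spNegOne F * g)⁻¹ : Matrix.symplecticGroup (Fin 3) F).1 = -(g⁻¹ : Matrix.symplecticGroup (Fin 3) F).1 := by
          refine (left_inv_eq_right_inv (a := (spNegOne F * g).1) ?_ (sp_mul_inv _)).symm
          show -_ * ((-1 : Matrix _ _ F) * g.1) = 1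
          rw [neg_one_mul, neg_mul_neg, sp_inv_mul]
        simp only [spN, hi, hc2]
        show (-1 : Matrix _ _ F) * g.1 + _ - _ = _
        rw [neg_one_mul, neg_smul]
        abel
      rw [hneg, neg_pow, hN, mul_zero]
  · exact covered_nilpotent g hc2 hN

/-- `PSp_6(q)`, `q` a power of three, is covered by two classes. -/
theorem twoCover_psp_six : TwoCover (Cfsg.PSp 3 F) := by
  classical
  refine twoCover_quotient (Subgroup.center _) (H := planeH F) (K := torusK F) planeH_ne_top torusK_ne_top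
    ?_ ?_ sp_six_covered
  all_goals
    intro z hz
    rcases (mem_center_iff_eq (by norm_num) z).1 hz with h | h
    · rw [show z = 1 from Subtype.ext h]; exact one_mem _
    · rw [show z = spNegOne F from Subtype.ext h]
      first
        | exact spNegOne_mem_planeH
        | exact spNegOne_mem_torusK

end Cfsg.Agent.H62.Covering
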