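/-
`PSp_2m(q)`, `q` even, is covered by the two classes of orthogonal subgroups.
-/
import Cfsg.Agent.H62.Covering.Basic
import Cfsg.Agent.H2.Center

set_option autoImplicit false

open Matrix Cfsg Cfsg.Agent.H2

namespace Cfsg.Agent.H62.Covering

variable {F : Type*} [Field F] {m : ℕ}

/-- A quadratic form polarising to the standard alternating form. -/
def IsQ (Q : (Fin m ⊕ Fin m → F) → F) : Prop :=
  (∀ x y, Q (x + y) = Q x + Q y + sympForm m F x y) ∧ ∀ (a : F) x, Q (a • x) = a * a * Q x

/-- The stabiliser of a quadratic form in the symplectic group. -/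
def qStab (Q : (Fin m ⊕ Fin m → F) → F) : Subgroup (Matrix.symplecticGroup (Fin m) F) where
  carrier := {g | ∀ x, Q (g.1 *ᵥ x) = Q x}
  one_mem' := fun x => by simp
  mul_mem' := fun {g h} hg hh x => by
    show Q ((g.1 * h.1) *ᵥ x) = Q x
    rw [← mulVec_mulVec, hg, hh]
  inv_mem' := fun {g} hg x => by
    have h0 : g.1 * (g⁻¹ : Matrix.symplecticGroup (Fin m) F).1 = 1 :=
      congrArg Subtype.val (mul_inv_cancel g)
    have h1 := hg ((g⁻¹ : Matrix.symplecticGroup (Fin m) F).1 *ᵥ x)
    rw [mulVec_mulVec, h0, one_mulVec] at h1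
    exact h1.symm

/-- Adding the square of a functional keeps the polar form. -/
theorem isQ_add [CharP F 2] {Q : (Fin m ⊕ Fin m → F) → F} (hQ : IsQ Q)
    (a : (Fin m ⊕ Fin m → F) →ₗ[F] F) : IsQ fun x => Q x + a x * a x := by
  have h2 : (2 : F) = 0 := CharTwo.two_eq_zero
  refine ⟨fun x y => ?_, fun c x => ?_⟩
  · simp only [hQ.1, map_add]
    linear_combination (a x * a y) * h2
  · simp only [hQ.2, map_smul, smul_eq_mul]
    ring

/-- A transvection changes a form by the square of a functional. -/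
theorem q_transv [CharP F 2] {Q : (Fin m ⊕ Fin m → F) → F} (hQ : IsQ Q) (v x : Fin m ⊕ Fin m → F) :
    Q ((transv v (1 : F)).1 *ᵥ x) = Q x + sympForm m F x v * sympForm m F x v * (Q v + 1) := by
  rw [show (transv v (1 : F)).1 = Cfsg.sympTransvection m v 1 from rfl, sympTransvection_mulVec,
    one_mul, hQ.1, hQ.2, ← sympBilin_apply x (_ • v), map_smul, sympBilin_apply, smul_eq_mul]
  ring

variable [Finite F]

/-- Moving a form by the square of `B(w, ·)` when `Q w` is of the shape `z² + z`. -/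
theorem exists_move [CharP F 2] {Q : (Fin m ⊕ Fin m → F) → F} (hQ : IsQ Q)
    (w : Fin m ⊕ Fin m → F) (h : ∃ z, z * z + z = Q w) :
    ∃ t : Matrix.symplecticGroup (Fin m) F,
      ∀ x, Q (t.1 *ᵥ x) = Q x + sympForm m F x w * sympForm m F x w := by
  have h2 : (2 : F) = 0 := CharTwo.two_eq_zero
  obtain ⟨z, hz⟩ := h
  obtain ⟨y, hy⟩ : ∃ y : F, Q w * (y * y) + y + 1 = 0 := by
    by_cases hz0 : z = 0
    · exact ⟨1, by rw [← hz, hz0]; linear_combination h2⟩
    · refine ⟨z⁻¹, ?_⟩
      rw [← hz]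
      field_simp
      linear_combination (z + 1) * h2
  obtain ⟨c, hc⟩ := (frobeniusEquiv F 2).surjective y
  simp only [frobeniusEquiv_apply, frobenius_def, pow_two] at hc
  refine ⟨transv (c • w) 1, fun x => ?_⟩
  rw [q_transv hQ, hQ.2, ← sympBilin_apply x (c • w), map_smul, sympBilin_apply, smul_eq_mul]
  subst hc
  linear_combination (sympForm m F x w * sympForm m F x w) * hy -
    (sympForm m F x w * sympForm m F x w) * h2

/-- Every symplectic element fixes a form polarising to the alternating form. -/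
theorem exists_fixed_form [CharP F 2] {Q : (Fin m ⊕ Fin m → F) → F} (hQ : IsQ Q)
    (g : Matrix.symplecticGroup (Fin m) F) :
    ∃ a : (Fin m ⊕ Fin m → F) →ₗ[F] F, ∀ x,
      Q (g.1 *ᵥ x) + a (g.1 *ᵥ x) * a (g.1 *ᵥ x) = Q x + a x * a x := by
  have h2 : (2 : F) = 0 := CharTwo.two_eq_zero
  set e := (frobeniusEquiv F 2).symm
  have he : ∀ x, e x * e x = x := fun x => by
    have := (frobeniusEquiv F 2).apply_symm_apply x
    simpa only [frobeniusEquiv_apply, frobenius_def, pow_two] using this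
  let l : (Fin m ⊕ Fin m → F) →ₗ[F] F :=
    { toFun := fun x => e (Q (g.1 *ᵥ x) + Q x)
      map_add' := fun x y => by
        rw [← map_add, mulVec_add, hQ.1, hQ.1, sympForm_mulVec]
        congr 1
        linear_combination (sympForm m F x y) * h2
      map_smul' := fun a x => by
        rw [mulVec_smul, hQ.2, hQ.2, ← mul_add, map_mul, map_mul, RingHom.id_apply, smul_eq_mul]
        congr 1
        rw [← map_mul, ← pow_two, show a ^ 2 = frobeniusEquiv F 2 a from
          (frobeniusEquiv_apply ..).trans (frobenius_def ..) |>.symm]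
        exact RingEquiv.symm_apply_apply _ _ }
  set f : (Fin m ⊕ Fin m → F) →ₗ[F] (Fin m ⊕ Fin m → F) := Matrix.toLin' g.1 + LinearMap.id with hf
  have hl : l ∈ (LinearMap.ker f).dualAnnihilator := by
    rw [Submodule.mem_dualAnnihilator]
    intro x hx
    rw [LinearMap.mem_ker, hf, LinearMap.add_apply, toLin'_apply, LinearMap.id_apply] at hx
    have hx' : g.1 *ᵥ x = x := by
      funext i
      exact (CharTwo.add_eq_zero).1 (congrFun hx i)
    show e _ = 0
    rw [hx', CharTwo.add_self_eq_zero, map_zero]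
  rw [← LinearMap.range_dualMap_eq_dualAnnihilator_ker] at hl
  obtain ⟨a, ha⟩ := hl
  refine ⟨a, fun x => ?_⟩
  have h1 : a (g.1 *ᵥ x) + a x = e (Q (g.1 *ᵥ x) + Q x) := by
    have := congrArg (fun f : _ →ₗ[F] F => f x) ha
    simpa [hf, l] using this
  have h3 := he (Q (g.1 *ᵥ x) + Q x)
  rw [← h1] at h3
  linear_combination h3 + (Q (g.1 *ᵥ x) - a x * a x - a (g.1 *ᵥ x) * a x) * h2

/-- `PSp_2m(q)` for even `q` is covered by two classes. -/
theorem twoCover_psp_even [CharP F 2] (hm : 2 ≤ m) : TwoCover (Cfsg.PSp m F) := by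
  classical
  have h2 : (2 : F) = 0 := CharTwo.two_eq_zero
  -- the values z² + z
  let ψ : F →+ F := AddMonoidHom.mk' (fun z => z * z + z) fun a b => by linear_combination (a * b) * h2
  have hker : Nat.card ψ.ker = 2 := by
    have he : (ψ.ker : Set F) = {0, 1} := ?_
    · rw [← SetLike.coe_sort_coe, he, Nat.card_coe_set_eq, Set.ncard_pair zero_ne_one]
    ext z
    simp only [SetLike.mem_coe, AddMonoidHom.mem_ker, AddMonoidHom.mk'_apply, ψ, Set.mem_insert_iff,
      Set.mem_singleton_iff]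
    constructor
    · intro h
      rcases mul_eq_zero.1 (show z * (z + 1) = 0 by rw [← h]; ring) with h | h
      · exact Or.inl h
      · exact Or.inr (CharTwo.add_eq_zero.1 h)
    · rintro (rfl | rfl)
      · simp
      · linear_combination h2
  have hidx : ψ.range.index = 2 := by
    have h1 := ψ.range.index_mul_card
    have h3 := ψ.ker.index_mul_card
    rw [AddSubgroup.index_ker, hker] at h3
    have : 0 < Nat.card ψ.range := Nat.card_pos
    nlinarith
  obtain ⟨s, hs⟩ : ∃ s, s ∉ ψ.range := by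
    by_contra h
    push Not at h
    rw [show ψ.range = ⊤ from eq_top_iff.2 fun x _ => h x, AddSubgroup.index_top] at hidx
    omega
  -- the forms
  set Q₀ : (Fin m ⊕ Fin m → F) → F := fun x => ∑ i, x (.inl i) * x (.inr i) with hQ₀
  have hQ : IsQ Q₀ := by
    refine ⟨fun x y => ?_, fun a x => ?_⟩
    · rw [sympForm_apply]
      simp only [hQ₀, Pi.add_apply, ← Finset.sum_add_distrib]
      refine Finset.sum_congr rfl fun i _ => ?_
      linear_combination (x (.inl i) * y (.inr i)) * h2
    · simp only [hQ₀, Pi.smul_apply, smul_eq_mul, Finset.mul_sum]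
      exact Finset.sum_congr rfl fun i _ => by ring
  have hB : ∀ x y, sympForm m F x y = sympForm m F y x := fun x y => by
    rw [sympForm_swap x y]; linear_combination (sympForm m F x y) * h2
  set u₁ : Fin m ⊕ Fin m → F := Sum.elim (Pi.single ⟨0, by omega⟩ s) (Pi.single ⟨0, by omega⟩ 1) with hu₁
  have hQu : Q₀ u₁ = s := by
    simp only [hQ₀, hu₁, Sum.elim_inl, Sum.elim_inr]
    rw [Finset.sum_eq_single ⟨0, by omega⟩] <;> simp +contextual
  set Q₁ : (Fin m ⊕ Fin m → F) → F := fun x =>
    Q₀ x + sympBilin m F u₁ x * sympBilin m F u₁ x with hQ₁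
  have hQ1 : IsQ Q₁ := isQ_add hQ (sympBilin m F u₁)
  have hprop : ∀ Q : (Fin m ⊕ Fin m → F) → F, IsQ Q → qStab Q ≠ ⊤ := by
    intro Q hQ' htop
    have h1 : ∀ v, v ≠ 0 → Q v = 1 := fun v hv => by
      obtain ⟨x, hx⟩ := exists_sympForm_eq_one hv
      have h := (htop ▸ Subgroup.mem_top (transv v (1 : F)) : transv v (1 : F) ∈ qStab Q) x
      rw [q_transv hQ', hx, add_eq_left, one_mul, one_mul] at h
      exact CharTwo.add_eq_zero.1 h
    set e₀ : Fin m ⊕ Fin m → F := Pi.single (.inl ⟨0, by omega⟩) 1 with he₀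
    set e₁ : Fin m ⊕ Fin m → F := Pi.single (.inl ⟨1, by omega⟩) 1 with he₁
    have hne : e₀ + e₁ ≠ 0 := fun h => by
      have := congrFun h (.inl ⟨0, by omega⟩)
      simp [he₀, he₁] at this
    have h3 := hQ'.1 e₀ e₁
    rw [h1 _ hne, h1 _ (by simp [he₀]), h1 _ (by simp [he₁]), he₀, sympForm_single_inl, he₁] at h3
    simp [CharTwo.add_self_eq_zero] at h3
  have hc : Subgroup.center (Matrix.symplecticGroup (Fin m) F) = ⊥ := by
    refine (Subgroup.eq_bot_iff_forall _).2 fun g hg => Subtype.ext ?_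
    rcases (mem_center_iff_eq (by omega) g).1 hg with h | h
    · exact h
    · show g.1 = 1
      rw [h]
      ext i j
      simp [CharTwo.neg_eq]
  refine twoCover_quotient (Subgroup.center _) (hprop Q₀ hQ) (hprop Q₁ hQ1) (hc.le.trans bot_le)
    (hc.le.trans bot_le) fun g => ?_
  obtain ⟨a, ha⟩ := exists_fixed_form hQ g
  set u := ((sympBilin m F).toDual (sympBilin_nondegenerate m F)).symm a with hu
  have hau : ∀ x, a x = sympForm m F u x := fun x => by
    rw [← sympBilin_apply, hu, LinearMap.BilinForm.apply_toDual_symm_apply]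
  have key : ∀ (Q : (Fin m ⊕ Fin m → F) → F) (x : Matrix.symplecticGroup (Fin m) F),
      (∀ y, Q (x.1 *ᵥ y) = Q₀ y + a y * a y) → x * g * x⁻¹ ∈ qStab Q := by
    intro Q x hx y
    show Q ((x.1 * g.1 * (x⁻¹ : Matrix.symplecticGroup (Fin m) F).1) *ᵥ y) = Q y
    rw [← mulVec_mulVec, ← mulVec_mulVec, hx, ha, ← hx, mulVec_mulVec,
      show x.1 * (x⁻¹ : Matrix.symplecticGroup (Fin m) F).1 = 1 from congrArg Subtype.val (mul_inv_cancel x),
      one_mulVec]
  by_cases hAS : Q₀ u ∈ ψ.range
  · obtain ⟨z, hz⟩ := hAS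
    obtain ⟨t, ht⟩ := exists_move hQ u ⟨z, hz⟩
    exact ⟨t, Or.inl (key Q₀ t fun y => by rw [ht, hau, hB y u])⟩
  · obtain ⟨z, hz⟩ := (AddSubgroup.add_mem_iff_of_index_two hidx).2 (iff_of_false hAS hs)
    obtain ⟨t, ht⟩ := exists_move hQ1 (u + u₁) ⟨z + sympForm m F u u₁, by
      have hz' : z * z + z = Q₀ u + s := hz
      have he : sympForm m F u₁ (u + u₁) = sympForm m F u₁ u + sympForm m F u₁ u₁ := by
        rw [← sympBilin_apply, map_add, sympBilin_apply, sympBilin_apply]
      simp only [hQ₁, sympBilin_apply, he]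
      rw [hQ.1, sympForm_self, hB u₁ u, hQu]
      linear_combination hz' + (sympForm m F u u₁ * z) * h2⟩
    refine ⟨t, Or.inr (key Q₁ t fun y => ?_)⟩
    rw [ht, hau, hQ₁]
    have he : sympForm m F y (u + u₁) = sympForm m F y u + sympForm m F y u₁ := by
      rw [← sympBilin_apply, map_add, sympBilin_apply, sympBilin_apply]
    simp only [sympBilin_apply, he]
    rw [hB y u, hB y u₁]
    linear_combination (sympForm m F u₁ y * sympForm m F u₁ y + sympForm m F u y * sympForm m F u₁ y) * h2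

end Cfsg.Agent.H62.Covering
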